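/-
The geometric classes of `GL_n(q)` do not contain `SL_n(q)`, `n ≥ 3`.
-/
import Cfsg.Agent.Lib.Asch.Main
import Cfsg.Agent.Lib.Geo.Parabolic

set_option autoImplicit false

namespace Cfsg.Agent.Lib.CmaxL.Proper

open Matrix Module Cfsg Cfsg.Geo Cfsg.Agent.Lib.Geo.Basic
open scoped MatrixGroups

universe u

variable {ι : Type} [Fintype ι] [DecidableEq ι] {F : Type u} [Field F]

/-- A covector vanishing on a subspace and taking the value one at a vector outside. -/
theorem exists_covec (S : Submodule F (ι → F)) {z : ι → F} (hz : z ∉ S) :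
    ∃ φ : ι → F, φ ⬝ᵥ z = 1 ∧ ∀ s ∈ S, φ ⬝ᵥ s = 0 := by
  obtain ⟨f, hf, hf'⟩ := Submodule.exists_dual_map_eq_bot_of_notMem hz inferInstance
  let g : (ι → F) →ₗ[F] F := (f z)⁻¹ • f
  have hgz : g z = 1 := by
    simp [g, hf]
  have hgS : ∀ s ∈ S, g s = 0 := by
    intro s hs
    have h1 : f s ∈ S.map f := ⟨s, hs, rfl⟩
    rw [hf'] at h1
    simp only [g, LinearMap.smul_apply, smul_eq_mul]
    rw [(Submodule.mem_bot F).1 h1, mul_zero]
  have hg : ∀ x, (fun i => g (Pi.single i 1)) ⬝ᵥ x = g x := by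
    intro x
    have : x = ∑ i, x i • (Pi.single i 1 : ι → F) := by
      ext j
      simp [Finset.sum_apply, Pi.single_apply]
    conv_rhs => rw [this]
    rw [map_sum]
    simp only [dotProduct, map_smul, smul_eq_mul]
    exact Finset.sum_congr rfl fun i _ => mul_comm _ _
  exact ⟨fun i => g (Pi.single i 1), by rw [hg, hgz], fun s hs => by rw [hg, hgS s hs]⟩

theorem span_pair_ne_top (hι : 3 ≤ Fintype.card ι) (x y : ι → F) : Submodule.span F {x, y} ≠ ⊤ := by
  intro h
  classical
  have h1 : Module.finrank F (Submodule.span F ({x, y} : Set (ι → F))) ≤ 2 := by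
    have h3 := finrank_span_finset_le_card (R := F) ({x, y} : Finset (ι → F))
    have h2 : ({x, y} : Finset (ι → F)).card ≤ 2 := Finset.card_le_two
    have h4 : ((({x, y} : Finset (ι → F))) : Set (ι → F)) = {x, y} := by simp
    rw [h4] at h3
    exact h3.trans h2
  rw [h, finrank_top, Module.finrank_fintype_fun_eq_card] at h1
  omega

/-- A transvection which is not a similarity of a form additive in the first variable. -/
theorem exists_transv_not_sim {f : (ι → F) → (ι → F) → F} (hadd : ∀ a b v, f (a + b) v = f a v + f b v)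
    {x y : ι → F} (hxy : f x y ≠ 0) (hι : 3 ≤ Fintype.card ι) :
    ∃ t ∈ specialLinear ι F, ∀ c : F, ¬ ∀ u v, f ((t : Matrix ι ι F) *ᵥ u) ((t : Matrix ι ι F) *ᵥ v) = c * f u v := by
  classical
  have hS := span_pair_ne_top hι x y
  obtain ⟨z, hz⟩ : ∃ z, z ∉ Submodule.span F ({x, y} : Set (ι → F)) := by
    by_contra hcon
    push Not at hcon
    exact hS (Submodule.eq_top_iff'.2 hcon)
  obtain ⟨φ, hφz, hφS⟩ := exists_covec _ hz
  have hφx : φ ⬝ᵥ x = 0 := hφS _ (Submodule.subset_span (by simp))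
  have hφy : φ ⬝ᵥ y = 0 := hφS _ (Submodule.subset_span (by simp))
  refine ⟨transv x φ hφx, transv_mem_specialLinear _ _ _, fun c h => ?_⟩
  have h1 := h x y
  have h2 := h z y
  rw [transv_mulVec, transv_mulVec, hφx, hφy, zero_smul, add_zero, add_zero] at h1
  rw [transv_mulVec, transv_mulVec, hφz, hφy, zero_smul, one_smul, add_zero, hadd] at h2
  have hc : c = 1 := by
    have : (c - 1) * f x y = 0 := by linear_combination -h1
    rcases mul_eq_zero.1 this with h3 | h3
    · linear_combination h3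
    · exact absurd h3 hxy
  rw [hc, one_mul] at h2
  apply hxy
  linear_combination h2

/-- `SL` is not contained in the similarity group of a form. -/
theorem not_le_sim {f : (ι → F) → (ι → F) → F} (hadd : ∀ a b v, f (a + b) v = f a v + f b v)
    {x y : ι → F} (hxy : f x y ≠ 0) (hι : 3 ≤ Fintype.card ι) :
    ¬ specialLinear ι F ≤ similarityGroup f := by
  intro hle
  obtain ⟨t, ht, hn⟩ := exists_transv_not_sim hadd hxy hι
  obtain ⟨c, hc⟩ := hle ht
  exact hn c hc

/-- `SL` is not contained in the similarity group of a quadratic form. -/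
theorem not_le_quadSim {Q : (ι → F) → F} (hQ : IsNondegenerateQuadraticForm Q) (hι : 3 ≤ Fintype.card ι) :
    ¬ specialLinear ι F ≤ quadSimilarityGroup Q := by
  classical
  intro hle
  haveI : Nonempty ι := by
    apply Fintype.card_pos_iff.1
    omega
  obtain ⟨i⟩ := ‹Nonempty ι›
  have hv : (Pi.single i 1 : ι → F) ≠ 0 := by
    intro h
    have := congrFun h i
    simp at this
  obtain ⟨⟨x, hx⟩, -⟩ := hQ.nondegenerate _ hv
  obtain ⟨t, ht, hn⟩ := exists_transv_not_sim (f := QuadraticMap.polar Q) hQ.polar_bilinear.add_left hx hι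
  obtain ⟨c, hc⟩ := hle ht
  apply hn c
  intro u v
  simp only [QuadraticMap.polar]
  rw [← Matrix.mulVec_add, hc, hc, hc]
  ring

/-- `SL` is not contained in the similarity group of a symplectic form. -/
theorem not_le_symp {f : (ι → F) → (ι → F) → F} (hf : IsSymplecticForm f) (hι : 3 ≤ Fintype.card ι) :
    ¬ specialLinear ι F ≤ similarityGroup f := by
  classical
  haveI : Nonempty ι := by
    apply Fintype.card_pos_iff.1
    omega
  obtain ⟨i⟩ := ‹Nonempty ι›
  have hv : (Pi.single i 1 : ι → F) ≠ 0 := by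
    intro h
    have := congrFun h i
    simp at this
  obtain ⟨⟨x, hx⟩, -⟩ := hf.nondegenerate _ hv
  exact not_le_sim hf.bilinear.add_left hx hι

/-- `SL` is not contained in the similarity group of a unitary form. -/
theorem not_le_unit {σ : F ≃+* F} {f : (ι → F) → (ι → F) → F} (hf : IsUnitaryForm σ f) (hι : 3 ≤ Fintype.card ι) :
    ¬ specialLinear ι F ≤ similarityGroup f := by
  classical
  haveI : Nonempty ι := by
    apply Fintype.card_pos_iff.1
    omega
  obtain ⟨i⟩ := ‹Nonempty ι›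
  have hv : (Pi.single i 1 : ι → F) ≠ 0 := by
    intro h
    have := congrFun h i
    simp at this
  obtain ⟨⟨x, hx⟩, -⟩ := hf.nondegenerate _ hv
  exact not_le_sim hf.add_left hx hι

/-- `SL` does not stabilise a decomposition. -/
theorem not_le_decomp {t m : ℕ} {D : Fin t → Submodule F (ι → F)} (hD : IsMDecomposition m D) :
    ¬ specialLinear ι F ≤ decompositionStabilizer D := by
  classical
  intro hle
  have ht := hD.two_le
  let i₀ : Fin t := ⟨0, by omega⟩
  let i₁ : Fin t := ⟨1, by omega⟩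
  have h01 : i₀ ≠ i₁ := by simp [i₀, i₁, Fin.ext_iff]
  have hne : ∀ i, D i ≠ ⊥ := by
    intro i h
    have h1 := hD.finrank_eq i
    rw [h] at h1
    have := hD.pos
    simp at h1
    omega
  obtain ⟨v, hv, hv0⟩ := Submodule.exists_mem_ne_zero_of_ne_bot (hne i₀)
  obtain ⟨w, hw, hw0⟩ := Submodule.exists_mem_ne_zero_of_ne_bot (hne i₁)
  have hin : ∀ {i j : Fin t}, i ≠ j → D j ≤ ⨆ k, ⨆ (_ : k ≠ i), D k := by
    intro i j hij
    exact le_iSup₂_of_le j hij.symm le_rfl
  have hdis : ∀ (i : Fin t) {a : ι → F}, a ∈ D i → a ∈ (⨆ k, ⨆ (_ : k ≠ i), D k : Submodule F (ι → F)) → a = 0 := by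
    intro i a ha ha'
    have := (hD.indep i)
    exact (Submodule.disjoint_def.1 this) a ha ha'
  have hvw : v ∉ Submodule.span F {w} := by
    intro h
    have h1 : v ∈ D i₁ := (Submodule.span_singleton_le_iff_mem _ _).2 hw h
    exact hv0 (hdis i₀ hv (hin h01 h1))
  obtain ⟨φ, hφv, hφS⟩ := exists_covec _ hvw
  have hφw : φ ⬝ᵥ w = 0 := hφS _ (Submodule.mem_span_singleton_self w)
  obtain ⟨σ, hσ⟩ := hle (transv_mem_specialLinear w φ hφw)
  have h1 : (transv w φ hφw : GL ι F).1 *ᵥ v ∈ D (σ i₀) := by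
    rw [← hσ i₀]
    exact ⟨v, hv, rfl⟩
  rw [transv_mulVec, hφv, one_smul] at h1
  by_cases hj : σ i₀ = i₀
  · rw [hj] at h1
    have h2 : w ∈ D i₀ := by
      have := (D i₀).sub_mem h1 hv
      simpa using this
    exact hw0 (hdis i₁ hw (hin h01.symm h2))
  · have h2 : v ∈ (⨆ k, ⨆ (_ : k ≠ i₀), D k : Submodule F (ι → F)) := by
      have h3 := hin (Ne.symm hj) h1
      have h4 := hin h01 hw
      have := Submodule.sub_mem _ h3 h4
      simpa using this
    exact hv0 (hdis i₀ hv h2)

/-- `SL` does not normalise a field. -/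
theorem not_le_field {r : ℕ} (hr : 2 ≤ r) {K : Subalgebra F (Matrix ι ι F)} (hK : IsFieldSubalgebra r K)
    (hι : 3 ≤ Fintype.card ι) : ¬ specialLinear ι F ≤ subalgebraNormalizer K := by
  classical
  intro hle
  have hcomm : ∀ k ∈ K, ∀ (i j : ι) (hij : i ≠ j) (c : F),
      (elemGL i j hij c : Matrix ι ι F) * k = k * (elemGL i j hij c : Matrix ι ι F) := by
    intro k hk i j hij c
    set t := elemGL i j hij c with ht
    have hm := hle (elemGL_mem_specialLinear i j hij c)
    have h1 : (t : Matrix ι ι F) * k * ((t⁻¹ : GL ι F) : Matrix ι ι F) ∈ K := (hm k).1 hk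
    by_contra hne
    have hx0 : (t : Matrix ι ι F) * k * ((t⁻¹ : GL ι F) : Matrix ι ι F) - k ≠ 0 := by
      intro h0
      apply hne
      have h2 := sub_eq_zero.1 h0
      calc (t : Matrix ι ι F) * k = (t : Matrix ι ι F) * k * (((t⁻¹ : GL ι F) : Matrix ι ι F) * (t : Matrix ι ι F)) := by
            rw [← Units.val_mul, inv_mul_cancel, Units.val_one, mul_one]
        _ = ((t : Matrix ι ι F) * k * ((t⁻¹ : GL ι F) : Matrix ι ι F)) * (t : Matrix ι ι F) := by
            simp only [mul_assoc]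
        _ = k * (t : Matrix ι ι F) := by rw [h2]
    obtain ⟨y, hy, hxy⟩ := hK.inv _ (K.sub_mem h1 hk) hx0
    have hyx := hK.comm _ (K.sub_mem h1 hk) y hy
    rw [hxy] at hyx
    -- a vector in the kernel
    let L : (ι → F) →ₗ[F] (Fin 2 → F) :=
      LinearMap.pi ![LinearMap.proj j, (LinearMap.proj j) ∘ₗ Matrix.mulVecLin k]
    have hker : LinearMap.ker L ≠ ⊥ := by
      apply LinearMap.ker_ne_bot_of_finrank_lt
      simp only [Module.finrank_fintype_fun_eq_card, Fintype.card_fin]
      omega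
    obtain ⟨w, hw, hw0⟩ := Submodule.exists_mem_ne_zero_of_ne_bot hker
    have hw1 : w j = 0 := by
      have := congrFun (LinearMap.mem_ker.1 hw) 0
      simpa [L] using this
    have hw2 : (k *ᵥ w) j = 0 := by
      have := congrFun (LinearMap.mem_ker.1 hw) 1
      simpa [L] using this
    have hfix : ∀ a : ι → F, a j = 0 → (t : Matrix ι ι F) *ᵥ a = a := by
      intro a ha
      rw [ht, coe_elemGL, transvection_mulVec, ha, mul_zero, add_zero, Function.update_eq_self]
    have hw3 : ((t⁻¹ : GL ι F) : Matrix ι ι F) *ᵥ w = w := by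
      conv_lhs => rw [← hfix w hw1]
      exact inv_mulVec_mulVec t w
    have hxw : ((t : Matrix ι ι F) * k * ((t⁻¹ : GL ι F) : Matrix ι ι F) - k) *ᵥ w = 0 := by
      rw [Matrix.sub_mulVec, ← Matrix.mulVec_mulVec, hw3, ← Matrix.mulVec_mulVec, hfix _ hw2, sub_self]
    apply hw0
    have h5 : (y * ((t : Matrix ι ι F) * k * ((t⁻¹ : GL ι F) : Matrix ι ι F) - k)) *ᵥ w = w := by
      rw [← hyx, Matrix.one_mulVec]
    rw [← h5, ← Matrix.mulVec_mulVec, hxw, Matrix.mulVec_zero]
  have hsc : ∀ k ∈ K, k ∈ (⊥ : Subalgebra F (Matrix ι ι F)) := by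
    intro k hk
    have h1 : k ∈ Set.range (Matrix.scalar ι : F →+* Matrix ι ι F) := by
      apply Matrix.mem_range_scalar_of_commute_transvectionStruct
      intro t
      have := hcomm k hk t.i t.j t.hij t.c
      rw [coe_elemGL] at this
      exact this
    obtain ⟨c, rfl⟩ := h1
    rw [Algebra.mem_bot]
    exact ⟨c, rfl⟩
  have hbot : K = ⊥ := eq_bot_iff.2 hsc
  have h1 := hK.finrank_eq
  haveI : Nonempty ι := by
    apply Fintype.card_pos_iff.1
    omega
  rw [hbot, Subalgebra.finrank_bot] at h1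
  omega

/-- `SL` is not in a tensor product subgroup. -/
theorem not_le_tensor {n₁ n₂ : ℕ} (h1 : 2 ≤ n₁) (h2 : 2 ≤ n₂) (e : ι ≃ Fin n₁ × Fin n₂) (P : GL ι F) :
    ¬ specialLinear ι F ≤ tensorProductSubgroup n₁ n₂ e P := by
  classical
  intro hle
  let u₀ : Fin n₁ := ⟨0, by omega⟩
  let u₁ : Fin n₁ := ⟨1, by omega⟩
  let v₀ : Fin n₂ := ⟨0, by omega⟩
  let v₁ : Fin n₂ := ⟨1, by omega⟩
  have hu : u₀ ≠ u₁ := by simp [u₀, u₁, Fin.ext_iff]
  have hv : v₀ ≠ v₁ := by simp [v₀, v₁, Fin.ext_iff]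
  let i₀ : ι := e.symm (u₀, v₀)
  let i₁ : ι := e.symm (u₁, v₁)
  have hi : i₀ ≠ i₁ := by
    intro h
    have := e.symm.injective h
    exact hu (congrArg Prod.fst this)
  have hτ := elemGL_mem_specialLinear i₀ i₁ hi (1 : F)
  set τ := elemGL i₀ i₁ hi (1 : F) with hτd
  have hg : P * τ * P⁻¹ ∈ specialLinear ι F := by
    rw [mem_specialLinear_iff] at hτ ⊢
    rw [Units.val_mul, Units.val_mul, Matrix.det_mul, Matrix.det_mul, hτ, mul_one, ← Matrix.det_mul,
      ← Units.val_mul, mul_inv_cancel, Units.val_one, Matrix.det_one]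
  obtain ⟨a, b, x, hx, hxP⟩ := (mem_tensorProductSubgroup_iff n₁ n₂ e P _).1 (hle hg)
  have hτx : τ = glReindex e.symm x := by
    rw [← hxP]
    group
  have hent : ∀ c d : Fin n₁ × Fin n₂,
      (Matrix.transvection i₀ i₁ (1 : F)) (e.symm c) (e.symm d) = (a : Matrix _ _ F) c.1 d.1 * (b : Matrix _ _ F) c.2 d.2 := by
    intro c d
    have h3 : (τ : Matrix ι ι F) = Matrix.reindex e.symm e.symm (x : Matrix _ _ F) := by
      rw [hτx]
      rfl
    rw [hτd, coe_elemGL] at h3
    rw [h3]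
    simp [hx, Matrix.kroneckerMap_apply]
  have hT : ∀ c d : ι, (Matrix.transvection i₀ i₁ (1 : F)) c d =
      (if c = d then 1 else 0) + (if c = i₀ ∧ d = i₁ then 1 else 0) := by
    intro c d
    simp only [Matrix.transvection, Matrix.add_apply, Matrix.one_apply, Matrix.single_apply]
    by_cases h : c = i₀ ∧ d = i₁
    · simp [h]
    · have : ¬ (i₀ = c ∧ i₁ = d) := fun h' => h ⟨h'.1.symm, h'.2.symm⟩
      simp [h, this]
  have hne2 : i₀ ≠ e.symm (u₁, v₀) := by
    intro h
    exact hu (congrArg Prod.fst (e.symm.injective h))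
  have hne3 : e.symm (u₁, v₀) ≠ i₁ := by
    intro h
    exact hv (congrArg Prod.snd (e.symm.injective h))
  have e1 := hent (u₀, v₀) (u₁, v₁)
  have e2 := hent (u₀, v₀) (u₀, v₀)
  have e3 := hent (u₀, v₀) (u₁, v₀)
  change (Matrix.transvection i₀ i₁ (1 : F)) i₀ i₁ = _ at e1
  change (Matrix.transvection i₀ i₁ (1 : F)) i₀ i₀ = _ at e2
  change (Matrix.transvection i₀ i₁ (1 : F)) i₀ (e.symm (u₁, v₀)) = _ at e3
  rw [hT] at e1 e2 e3
  simp only [if_neg hi, zero_add, true_and, if_true] at e1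
  simp only [if_true, if_neg hi, add_zero, true_and] at e2
  simp only [if_neg hne2, zero_add, true_and, if_neg hne3] at e3
  have ha : (a : Matrix _ _ F) u₀ u₁ ≠ 0 := by
    intro h
    rw [h, zero_mul] at e1
    exact one_ne_zero e1
  have hb : (b : Matrix _ _ F) v₀ v₀ ≠ 0 := by
    intro h
    rw [h, mul_zero] at e2
    exact one_ne_zero e2
  exact mul_ne_zero ha hb e3.symm

/-- `SL` is not in a subfield subgroup. -/
theorem not_le_subfield {F₀ : Subfield F} (hF : F₀ ≠ ⊤) (hι : 2 ≤ Fintype.card ι) (P : GL ι F) :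
    ¬ specialLinear ι F ≤ subfieldSubgroup F₀ P := by
  classical
  intro hle
  obtain ⟨x, hx⟩ : ∃ x, x ∉ F₀ := by
    by_contra hcon
    push Not at hcon
    exact hF (eq_top_iff.2 fun y _ => hcon y)
  obtain ⟨i, j, hij⟩ := Fintype.exists_pair_of_one_lt_card (by omega : 1 < Fintype.card ι)
  have hτ := elemGL_mem_specialLinear i j hij x
  set τ := elemGL i j hij x with hτd
  have hg : P * τ * P⁻¹ ∈ specialLinear ι F := by
    rw [mem_specialLinear_iff] at hτ ⊢
    rw [Units.val_mul, Units.val_mul, Matrix.det_mul, Matrix.det_mul, hτ, mul_one, ← Matrix.det_mul,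
      ← Units.val_mul, mul_inv_cancel, Units.val_one, Matrix.det_one]
  obtain ⟨c, A, hA⟩ := (mem_subfieldSubgroup_iff F₀ P _).1 (hle hg)
  have h1 : τ = Matrix.GeneralLinearGroup.map (F₀.subtype : F₀ →+* F) A * Matrix.GeneralLinearGroup.scalar ι c := by
    rw [← hA]
    group
  have hent : ∀ a b, (Matrix.transvection i j x) a b = ((A : Matrix ι ι F₀) a b : F) * (c : F) := by
    intro a b
    have h3 : (τ : Matrix ι ι F) = _ := congrArg Units.val h1
    rw [hτd, coe_elemGL] at h3
    rw [h3]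
    simp [Matrix.GeneralLinearGroup.scalar, Matrix.scalar_apply, Matrix.mul_diagonal]
  have e1 := hent i i
  have e2 := hent i j
  simp only [Matrix.transvection, Matrix.add_apply, Matrix.one_apply_eq, Matrix.single_apply, hij, if_false,
    true_and, if_true, Matrix.one_apply_ne hij, and_true, zero_add, add_zero, and_false, hij.symm] at e1 e2
  have hA0 : ((A : Matrix ι ι F₀) i i : F) ≠ 0 := by
    intro h
    rw [h, zero_mul] at e1
    exact one_ne_zero e1
  have hc : (c : F) = ((A : Matrix ι ι F₀) i i : F)⁻¹ := by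
    field_simp
    linear_combination -e1
  rw [hc] at e2
  apply hx
  rw [e2]
  exact F₀.mul_mem ((A : Matrix ι ι F₀) i j).2 (F₀.inv_mem ((A : Matrix ι ι F₀) i i).2)

end Cfsg.Agent.Lib.CmaxL.Proper
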