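/-
The geometric classes of `GL_n(q)` do not contain `SL_n(q)`, `n ≥ 3`: normalisers of `r`-groups and
tensor wreath subgroups; the dimension of an absolutely irreducible `r`-group.
-/
import Cfsg.Agent.Lib.CmaxL.Proper
import Cfsg.Agent.Lib.HallHigman.DegPower

set_option autoImplicit false

namespace Cfsg.Agent.Lib.CmaxL.Proper2

open Matrix Module Cfsg Cfsg.Geo Cfsg.Agent.Lib.Geo.Basic Cfsg.Agent.Lib.CmaxL.Proper
open scoped MatrixGroups

universe u

variable {ι : Type} [Fintype ι] [DecidableEq ι] {F : Type u} [Field F]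

theorem pow_aux (y : GL ι F) {u v : ι → F} {c : F} (hv : (y : Matrix ι ι F) *ᵥ v = v)
    (hu : (y : Matrix ι ι F) *ᵥ u = u + c • v) (m : ℕ) :
    ((y ^ m : GL ι F) : Matrix ι ι F) *ᵥ u = u + ((m : F) * c) • v := by
  have hv' : ∀ k : ℕ, ((y ^ k : GL ι F) : Matrix ι ι F) *ᵥ v = v := by
    intro k
    induction k with
    | zero => simp
    | succ k ih =>
      rw [pow_succ, Units.val_mul, ← Matrix.mulVec_mulVec, hv, ih]
  induction m with
  | zero => simp
  | succ k ih =>
    rw [pow_succ, Units.val_mul, ← Matrix.mulVec_mulVec, hu, Matrix.mulVec_add, Matrix.mulVec_smul, ih, hv']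
    push_cast
    rw [add_assoc, ← add_smul]
    congr 2
    ring

/-- `SL` does not normalise an absolutely irreducible `r`-group, `r` different from the characteristic. -/
theorem not_le_normalizer {n : ℕ} (hn : 3 ≤ n) {r : ℕ} {R : Subgroup (GL (Fin n) F)}
    (hA : ActsAbsolutelyIrreducibly (matrixSet R)) (hr : (r : F) ≠ 0) (hP : IsPGroup r R) :
    ¬ specialLinear (Fin n) F ≤ subgroupNormalizer R := by
  classical
  intro hle
  obtain ⟨x, hxR, hxZ⟩ := SetLike.not_le_iff_exists.1 (Cfsg.Agent.Lib.Asch.XT.not_le_scalars (by omega) hA)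
  have hex : ∃ u : Fin n → F, LinearIndependent F ![u, (x : Matrix (Fin n) (Fin n) F) *ᵥ u] := by
    by_contra hcon
    push Not at hcon
    obtain ⟨a, ha⟩ := LinearMap.exists_eq_smul_id_of_forall_notLinearIndependent
      (f := Matrix.toLin' (x : Matrix (Fin n) (Fin n) F)) (fun v => by simpa using hcon v)
    apply hxZ
    have hval : (x : Matrix (Fin n) (Fin n) F) = a • 1 := by
      have h1 := congrArg LinearMap.toMatrix' ha
      rw [LinearMap.toMatrix'_toLin'] at h1
      rw [h1, map_smul]
      congr 1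
      exact LinearMap.toMatrix'_id
    have ha0 : a ≠ 0 := by
      rintro rfl
      have h1 : ((x⁻¹ : GL (Fin n) F) : Matrix (Fin n) (Fin n) F) * (x : Matrix (Fin n) (Fin n) F) = 1 := by
        rw [← Units.val_mul, inv_mul_cancel, Units.val_one]
      rw [hval, zero_smul, mul_zero] at h1
      have h2 := congrFun (congrFun h1 ⟨0, by omega⟩) ⟨0, by omega⟩
      simp at h2
    exact (mem_scalars_iff x).2 ⟨Units.mk0 a ha0, by simpa using hval⟩
  obtain ⟨u, hLI⟩ := hex
  set xu := (x : Matrix (Fin n) (Fin n) F) *ᵥ u with hxu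
  have hpair := LinearIndependent.pair_iff.1 hLI
  have hxu0 : xu ≠ 0 := by
    intro h
    have := hpair 0 1 (by rw [h]; simp)
    exact one_ne_zero this.2
  have hS := span_pair_ne_top (ι := Fin n) (by simpa using hn) u xu
  obtain ⟨z, hz⟩ : ∃ z, z ∉ Submodule.span F ({u, xu} : Set (Fin n → F)) := by
    by_contra hcon
    push Not at hcon
    exact hS (Submodule.eq_top_iff'.2 hcon)
  obtain ⟨φ, hφz, hφS⟩ := exists_covec _ hz
  have hφu : φ ⬝ᵥ u = 0 := hφS _ (Submodule.subset_span (by simp))
  have hφx : φ ⬝ᵥ xu = 0 := hφS _ (Submodule.subset_span (by simp))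
  set t := transv u φ hφu with ht
  have hN := hle (transv_mem_specialLinear u φ hφu)
  have hN' : t * x⁻¹ * t⁻¹ ∈ R := (Subgroup.mem_normalizer_iff.1 hN _).1 (R.inv_mem hxR)
  set y := x * (t * x⁻¹ * t⁻¹) with hy
  have hyR : y ∈ R := R.mul_mem hxR hN'
  set ψ := φ ᵥ* ((x⁻¹ : GL (Fin n) F) : Matrix (Fin n) (Fin n) F) with hψ
  have hψx : ψ ⬝ᵥ xu = 0 := by
    rw [hψ, hxu, dotProduct_conj_eq, hφu]
  set a := ψ ⬝ᵥ u with ha
  have hc : x * t * x⁻¹ = transv xu ψ hψx := conj_transv x u φ hφu _
  have hy2 : y = transv xu ψ hψx * t⁻¹ := by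
    rw [← hc, hy]
    group
  have hyw : ∀ w, (y : Matrix (Fin n) (Fin n) F) *ᵥ w = w - (φ ⬝ᵥ w) • u + ((ψ ⬝ᵥ w) - (φ ⬝ᵥ w) * a) • xu := by
    intro w
    rw [hy2, Units.val_mul, ← Matrix.mulVec_mulVec, transv_mulVec, ht, transv_inv_eq, transv_mulVec]
    simp only [dotProduct_add, dotProduct_smul, smul_eq_mul, dotProduct_neg]
    rw [← ha]
    module
  have hyxu : (y : Matrix (Fin n) (Fin n) F) *ᵥ xu = xu := by
    rw [hyw, hφx, hψx]
    simp
  have hyu : (y : Matrix (Fin n) (Fin n) F) *ᵥ u = u + a • xu := by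
    rw [hyw, hφu, ← ha]
    simp
  obtain ⟨k, hk⟩ := hP ⟨y, hyR⟩
  have hk' : y ^ (r ^ k) = 1 := by
    have := congrArg Subtype.val hk
    simpa using this
  have hrk : ((r ^ k : ℕ) : F) ≠ 0 := by
    push_cast
    exact pow_ne_zero _ hr
  by_cases ha0 : a = 0
  · -- the element acts on `z`
    have hyu' : (y : Matrix (Fin n) (Fin n) F) *ᵥ u = u := by
      rw [hyu, ha0, zero_smul, add_zero]
    set b := ψ ⬝ᵥ z with hb
    set v := -u + b • xu with hv
    have hyv : (y : Matrix (Fin n) (Fin n) F) *ᵥ v = v := by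
      rw [hv, Matrix.mulVec_add, Matrix.mulVec_neg, Matrix.mulVec_smul, hyu', hyxu]
    have hyz : (y : Matrix (Fin n) (Fin n) F) *ᵥ z = z + (1 : F) • v := by
      rw [hyw, hφz, ha0, ← hb, hv]
      module
    have h1 := pow_aux y hyv hyz (r ^ k)
    rw [hk', Units.val_one, Matrix.one_mulVec] at h1
    have h2 : (((r ^ k : ℕ) : F) * 1) • v = 0 := by
      have := congrArg (fun w => w - z) h1
      simpa using this.symm
    rw [mul_one, smul_eq_zero] at h2
    rcases h2 with h2 | h2
    · exact hrk h2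
    · have := hpair 1 (-b) (by
        have h3 : (1 : F) • u + (-b) • xu = - v := by
          rw [hv]
          module
        rw [h3, h2, neg_zero])
      exact one_ne_zero this.1
  · have h1 := pow_aux y hyxu hyu (r ^ k)
    rw [hk', Units.val_one, Matrix.one_mulVec] at h1
    have h2 : (((r ^ k : ℕ) : F) * a) • xu = 0 := by
      have := congrArg (fun w => w - u) h1
      simpa using this.symm
    rw [smul_eq_zero] at h2
    rcases h2 with h2 | h2
    · exact (mul_ne_zero hrk ha0) h2
    · exact hxu0 h2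

/-! ### Tensor wreath subgroups -/

/-- Decomposable vectors of the tensor power. -/
def Dec {F : Type u} [Field F] {t m : ℕ} (v : (Fin t → Fin m) → F) : Prop :=
  ∃ us : Fin t → Fin m → F, ∀ x, v x = ∏ i, us i (x i)

theorem dec_of_mem [Finite F] {t m : ℕ} {g : GL (Fin t → Fin m) F} (hg : g ∈ tensorWreathStandard m t F) :
    ∀ v : (Fin t → Fin m) → F, Dec v → Dec ((g : Matrix (Fin t → Fin m) (Fin t → Fin m) F) *ᵥ v) := by
  classical
  unfold tensorWreathStandard at hg
  induction hg using Subgroup.closure_induction with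
  | mem g hg =>
    rcases hg with ⟨gs, hgs⟩ | ⟨σ, hσ⟩
    · rintro v ⟨us, hus⟩
      refine ⟨fun i a => ∑ b, (gs i : Matrix (Fin m) (Fin m) F) a b * us i b, fun x => ?_⟩
      rw [Finset.prod_univ_sum, Fintype.piFinset_univ]
      simp only [Matrix.mulVec, dotProduct, hgs, hus, Finset.prod_mul_distrib]
    · rintro v ⟨us, hus⟩
      refine ⟨fun j a => us (σ.symm j) a, fun x => ?_⟩
      simp only [Matrix.mulVec, dotProduct, hσ, ite_mul, one_mul, zero_mul, Finset.sum_ite_eq', Finset.mem_univ, if_true]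
      rw [hus, ← Equiv.prod_comp σ (fun j => us (σ.symm j) (x j))]
      simp
  | one =>
    intro v hv
    simpa using hv
  | mul a b _ _ ha hb =>
    intro v hv
    rw [Units.val_mul, ← Matrix.mulVec_mulVec]
    exact ha _ (hb _ hv)
  | inv a _ ha =>
    intro v hv
    have hfin : IsOfFinOrder a := isOfFinOrder_of_finite a
    have hpow : ∀ k : ℕ, ∀ v : (Fin t → Fin m) → F, Dec v →
        Dec (((a ^ k : GL (Fin t → Fin m) F) : Matrix (Fin t → Fin m) (Fin t → Fin m) F) *ᵥ v) := by
      intro k
      induction k with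
      | zero =>
        intro v hv
        simpa using hv
      | succ k ih =>
        intro v hv
        rw [pow_succ, Units.val_mul, ← Matrix.mulVec_mulVec]
        exact ih _ (ha _ hv)
    have hinv : a⁻¹ = a ^ (orderOf a - 1) := by
      have h0 := orderOf_pos_iff.2 hfin
      apply inv_eq_of_mul_eq_one_right
      rw [← pow_succ', Nat.sub_add_cancel h0, pow_orderOf_eq_one]
    rw [hinv]
    exact hpow _ _ hv

/-- `SL` is not in a tensor wreath subgroup. -/
theorem not_le_wreath [Finite F] {m t : ℕ} (hm : 2 ≤ m) (ht : 2 ≤ t) (e : ι ≃ (Fin t → Fin m)) (P : GL ι F) :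
    ¬ specialLinear ι F ≤ tensorWreathSubgroup m t e P := by
  classical
  intro hle
  let a₀ : Fin m := ⟨0, by omega⟩
  let a₁ : Fin m := ⟨1, by omega⟩
  have ha : a₀ ≠ a₁ := by simp [a₀, a₁, Fin.ext_iff]
  let c₀ : Fin t := ⟨0, by omega⟩
  let c₁ : Fin t := ⟨1, by omega⟩
  have hcc : c₁ ≠ c₀ := by simp [c₀, c₁, Fin.ext_iff]
  let x₀ : Fin t → Fin m := fun _ => a₀
  let x₁ : Fin t → Fin m := fun _ => a₁
  have hx : x₀ ≠ x₁ := fun h => ha (congrFun h c₀)
  let i₀ : ι := e.symm x₀
  let i₁ : ι := e.symm x₁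
  have hi : i₀ ≠ i₁ := fun h => hx (e.symm.injective h)
  have hτ := elemGL_mem_specialLinear i₀ i₁ hi (1 : F)
  set τ := elemGL i₀ i₁ hi (1 : F) with hτd
  have hg : P * τ * P⁻¹ ∈ specialLinear ι F := by
    rw [mem_specialLinear_iff] at hτ ⊢
    rw [Units.val_mul, Units.val_mul, Matrix.det_mul, Matrix.det_mul, hτ, mul_one, ← Matrix.det_mul,
      ← Units.val_mul, mul_inv_cancel, Units.val_one, Matrix.det_one]
  obtain ⟨g, hgS, hgP⟩ := (Cfsg.Agent.Lib.Asch.Cl.mem_tensorWreathSubgroup_iff e P _).1 (hle hg)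
  have hτg : (τ : Matrix ι ι F) = (g : Matrix _ _ F).submatrix e e := by
    have h1 : (P : Matrix ι ι F) * (τ : Matrix ι ι F) = (P : Matrix ι ι F) * (g : Matrix _ _ F).submatrix e e := by
      rw [← hgP, Units.val_mul, Units.val_mul, mul_assoc, ← Units.val_mul P⁻¹, inv_mul_cancel, Units.val_one, mul_one]
    have h2 := congrArg (fun X => ((P⁻¹ : GL ι F) : Matrix ι ι F) * X) h1
    simpa [← mul_assoc] using h2
  have hgent : ∀ a b, (g : Matrix _ _ F) a b = (Matrix.transvection i₀ i₁ (1 : F)) (e.symm a) (e.symm b) := by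
    intro a b
    have := congrFun (congrFun hτg (e.symm a)) (e.symm b)
    rw [hτd, coe_elemGL] at this
    rw [this]
    simp
  let v : (Fin t → Fin m) → F := Pi.single x₁ 1
  have hvD : Dec v := by
    refine ⟨fun _ a => if a = a₁ then 1 else 0, fun x => ?_⟩
    by_cases hxx : x = x₁
    · subst hxx
      simp [v, x₁]
    · have : ∃ i, x i ≠ a₁ := by
        by_contra hcon
        push Not at hcon
        exact hxx (funext hcon)
      obtain ⟨i, hi⟩ := this
      rw [Finset.prod_eq_zero (Finset.mem_univ i) (by simp [hi])]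
      simp [v, hxx]
  obtain ⟨us, hus⟩ := dec_of_mem hgS v hvD
  have hgv : ∀ x, ((g : Matrix _ _ F) *ᵥ v) x = (if x = x₁ then 1 else 0) + (if x = x₀ then 1 else 0) := by
    intro x
    have h1 : ((g : Matrix _ _ F) *ᵥ v) x = (g : Matrix _ _ F) x x₁ := by
      simp [v, Matrix.mulVec, dotProduct, Pi.single_apply]
    rw [h1, hgent]
    simp only [Matrix.transvection, Matrix.add_apply, Matrix.one_apply, Matrix.single_apply, i₀, i₁,
      EmbeddingLike.apply_eq_iff_eq, true_and, and_true]
    by_cases h0 : x = x₀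
    · subst h0
      simp [hx]
    · have h3 : ¬ x₀ = x := fun h => h0 h.symm
      simp [h0, h3]
  have hu0 : ∀ i, us i a₀ ≠ 0 := by
    intro i h
    have h1 := hus x₀
    rw [hgv, Finset.prod_eq_zero (Finset.mem_univ i) h, if_neg hx, if_pos rfl] at h1
    simp at h1
  have hu1 : ∀ i, us i a₁ ≠ 0 := by
    intro i h
    have h1 := hus x₁
    rw [hgv, Finset.prod_eq_zero (Finset.mem_univ i) h, if_pos rfl, if_neg hx.symm] at h1
    simp at h1
  let y : Fin t → Fin m := Function.update x₀ c₀ a₁
  have hy1 : y ≠ x₁ := by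
    intro h
    have := congrFun h c₁
    simp only [y, Function.update_of_ne hcc, x₀, x₁] at this
    exact ha this
  have hy0 : y ≠ x₀ := by
    intro h
    have := congrFun h c₀
    simp only [y, Function.update_self, x₀] at this
    exact ha this.symm
  have h1 := hus y
  rw [hgv, if_neg hy1, if_neg hy0, add_zero] at h1
  have h2 : ∏ i, us i (y i) ≠ 0 := by
    apply Finset.prod_ne_zero_iff.2
    intro i _
    by_cases hic : i = c₀
    · subst hic
      simpa [y] using hu1 _
    · simpa [y, Function.update_of_ne hic, x₀] using hu0 i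
  exact h2 h1.symm

/-! ### The dimension of an absolutely irreducible `r`-group -/

/-- An absolutely irreducible `r`-group has dimension a power of `r`. -/
theorem exists_card_eq_pow [Finite F] {n : ℕ} (hn : 0 < n) {r : ℕ} (hrp : r.Prime) (hr : (r : F) ≠ 0)
    {R : Subgroup (GL (Fin n) F)} (hP : IsPGroup r R)
    (hA : ActsAbsolutelyIrreducibly (matrixSet R)) : ∃ k, n = r ^ k := by
  classical
  haveI : Fact r.Prime := ⟨hrp⟩
  haveI : Nonempty (Fin n) := ⟨⟨0, hn⟩⟩
  let E := AlgebraicClosure F
  let mp : Matrix (Fin n) (Fin n) F → Module.End E (Fin n → E) := fun M => Matrix.toLin' (M.map (algebraMap F E))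
  have mp_mul : ∀ A B, mp (A * B) = mp A * mp B := by
    intro A B
    simp only [mp]
    rw [Matrix.map_mul, Matrix.toLin'_mul]
    rfl
  let ρ : R →* Module.End E (Fin n → E) :=
    { toFun := fun g => mp ((g : GL (Fin n) F) : Matrix (Fin n) (Fin n) F)
      map_one' := by
        simp only [OneMemClass.coe_one, Units.val_one, mp]
        rw [Matrix.map_one _ (map_zero _) (map_one _), Matrix.toLin'_one]
        rfl
      map_mul' := fun a b => by
        simp only [Subgroup.coe_mul, Units.val_mul]
        exact mp_mul _ _ }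
  have hq : (r : E) ≠ 0 := by
    intro h
    apply hr
    have : algebraMap F E (r : F) = 0 := by
      rw [map_natCast]
      exact h
    exact (map_eq_zero_iff _ (algebraMap F E).injective).1 this
  have hirr : ∀ W : Submodule E (Fin n → E), (∀ g, ∀ w ∈ W, ρ g w ∈ W) → W = ⊥ ∨ W = ⊤ := by
    intro W hW
    have hM : ∀ M : Matrix (Fin n) (Fin n) F, ∀ w ∈ W, mp M w ∈ W := by
      intro M
      have hM' : M ∈ Submodule.span F (matrixSet R) := by
        rw [Cfsg.Agent.Lib.Asch.Basic.span_matrixSet_eq_top hA]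
        trivial
      induction hM' using Submodule.span_induction with
      | mem x hx =>
        obtain ⟨g, hg, rfl⟩ := hx
        exact hW ⟨g, hg⟩
      | zero =>
        intro w _
        simp [mp, Matrix.map_zero]
      | add a b _ _ ha hb =>
        intro w hw
        have : mp (a + b) w = mp a w + mp b w := by
          simp only [mp]
          rw [Matrix.map_add _ (map_add _), map_add]
          rfl
        rw [this]
        exact W.add_mem (ha w hw) (hb w hw)
      | smul c a _ ha =>
        intro w hw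
        have : mp (c • a) w = algebraMap F E c • mp a w := by
          simp only [mp]
          have h1 : (c • a).map (algebraMap F E) = algebraMap F E c • a.map (algebraMap F E) := by
            ext i j
            simp
          rw [h1, map_smul]
          rfl
        rw [this]
        exact W.smul_mem _ (ha w hw)
    by_cases hbot : W = ⊥
    · exact Or.inl hbot
    right
    obtain ⟨w, hw, hw0⟩ := Submodule.exists_mem_ne_zero_of_ne_bot hbot
    obtain ⟨j, hj⟩ : ∃ j, w j ≠ 0 := by
      by_contra hcon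
      push Not at hcon
      exact hw0 (funext hcon)
    have hsingle : ∀ i, (Pi.single i 1 : Fin n → E) ∈ W := by
      intro i
      have h1 := hM (Matrix.single i j 1) w hw
      have h2 : mp (Matrix.single i j 1) w = w j • (Pi.single i 1 : Fin n → E) := by
        ext l
        simp only [mp, Matrix.toLin'_apply, Matrix.mulVec, dotProduct, Matrix.map_apply, Matrix.single_apply, Pi.smul_apply,
          Pi.single_apply, smul_eq_mul]
        by_cases hl : i = l
        · subst hl
          simp [Finset.sum_ite_eq]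
        · simp [hl, Ne.symm hl]
      rw [h2] at h1
      have h3 := W.smul_mem (w j)⁻¹ h1
      rwa [smul_smul, inv_mul_cancel₀ hj, one_smul] at h3
    refine Submodule.eq_top_iff'.2 fun x => ?_
    have : x = ∑ i, x i • (Pi.single i 1 : Fin n → E) := by
      ext l
      simp [Finset.sum_apply, Pi.single_apply]
    rw [this]
    exact W.sum_mem fun i _ => W.smul_mem _ (hsingle i)
  haveI : Nontrivial (Fin n → E) := inferInstance
  obtain ⟨k, hk⟩ := Cfsg.Agent.Lib.HallHigman.DegPower.finrank_eq_pow (K := E) hq (Nat.card R) R le_rfl hP (Fin n → E) ρ hirr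
  refine ⟨k, ?_⟩
  rw [← hk]
  simp

end Cfsg.Agent.Lib.CmaxL.Proper2
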