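/-
Decompositions into lines over small fields: the stabiliser fixes a line, a quadratic form or a unitary form.
-/
import Cfsg.Agent.Lib.CmaxL.Proper2
import Cfsg.Agent.Lib.NotMax.Basic

set_option autoImplicit false

namespace Cfsg.Agent.Lib.CmaxL.Lines

open Matrix Module Cfsg Cfsg.Geo Cfsg.Agent.Lib.Geo.Basic
open scoped MatrixGroups

universe u

variable {ι : Type} [Fintype ι] [DecidableEq ι] {F : Type u} [Field F]

/-- A basis adapted to a decomposition into lines. -/
theorem exists_lines_basis {t : ℕ} {D : Fin t → Submodule F (ι → F)} (hD : IsMDecomposition 1 D) :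
    ∃ b : Module.Basis (Fin t) F (ι → F), ∀ g ∈ decompositionStabilizer D, ∃ (σ : Equiv.Perm (Fin t)) (r : Fin t → F),
      (∀ i, r i ≠ 0) ∧ ∀ z i, b.equivFun ((g : Matrix ι ι F) *ᵥ z) (σ i) = r i * b.equivFun z i := by
  classical
  have hcard := Cfsg.Agent.Lib.NotMax.Basic.card_le_mul D hD.iSup_eq_top hD.finrank_eq
  rw [mul_one] at hcard
  have hne : ∀ i, D i ≠ ⊥ := by
    intro i h
    have := hD.finrank_eq i
    rw [h] at this
    simp at this
  have hex : ∀ i, ∃ v ∈ D i, v ≠ 0 := fun i => Submodule.exists_mem_ne_zero_of_ne_bot (hne i)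
  choose v hv hv0 using hex
  have hli : LinearIndependent F v := hD.indep.linearIndependent _ hv hv0
  have hspan : ∀ i, ∀ x ∈ D i, ∃ c : F, x = c • v i := by
    intro i x hx
    have h1 := (finrank_eq_one_iff_of_nonzero' (⟨v i, hv i⟩ : D i) (by
      intro h
      exact hv0 i (congrArg Subtype.val h))).mp (hD.finrank_eq i) ⟨x, hx⟩
    obtain ⟨c, hc⟩ := h1
    exact ⟨c, (congrArg Subtype.val hc).symm⟩
  have hcardt : Fintype.card (Fin t) = Module.finrank F (ι → F) := by
    have h1 : t ≤ Fintype.card ι := by
      have := hli.fintype_card_le_finrank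
      simpa using this
    simp only [Fintype.card_fin, Module.finrank_fintype_fun_eq_card]
    omega
  have ht := hD.two_le
  have : Nonempty (Fin t) := ⟨⟨0, by omega⟩⟩
  let b : Module.Basis (Fin t) F (ι → F) := basisOfLinearIndependentOfCardEqFinrank hli hcardt
  have hb : ∀ i, b i = v i := fun i => by
    simp [b, coe_basisOfLinearIndependentOfCardEqFinrank]
  let E : (ι → F) ≃ₗ[F] (Fin t → F) := b.equivFun
  have hEb : ∀ k i, E (v k) i = if k = i then 1 else 0 := by
    intro k i
    rw [← hb]
    simp only [E, Module.Basis.equivFun_apply, Module.Basis.repr_self, Finsupp.single_apply]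
  refine ⟨b, ?_⟩
  rintro g ⟨σ, hσ⟩
  have hc : ∀ i, ∃ r : F, r ≠ 0 ∧ (g : Matrix ι ι F) *ᵥ v i = r • v (σ i) := by
    intro i
    have h1 : (g : Matrix ι ι F) *ᵥ v i ∈ D (σ i) := by
      rw [← hσ i]
      exact ⟨v i, hv i, rfl⟩
    obtain ⟨r, hr⟩ := hspan _ _ h1
    refine ⟨r, ?_, hr⟩
    rintro rfl
    rw [zero_smul] at hr
    apply hv0 i
    have := inv_mulVec_mulVec g (v i)
    rw [hr, Matrix.mulVec_zero] at this
    exact this.symm
  choose r hr0 hr using hc
  refine ⟨σ, r, hr0, fun z i => ?_⟩
  let L₁ : (ι → F) →ₗ[F] F := (LinearMap.proj (σ i)) ∘ₗ E.toLinearMap ∘ₗ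
    Matrix.toLin' (g : Matrix ι ι F)
  let L₂ : (ι → F) →ₗ[F] F := r i • ((LinearMap.proj i) ∘ₗ E.toLinearMap)
  have hL : L₁ = L₂ := by
    refine b.ext fun k => ?_
    simp only [L₁, L₂, LinearMap.comp_apply, LinearEquiv.coe_coe, Matrix.toLin'_apply,
      LinearMap.proj_apply, LinearMap.smul_apply, smul_eq_mul]
    rw [hb, hr, map_smul, Pi.smul_apply, smul_eq_mul, hEb, hEb]
    by_cases h1 : k = i
    · subst h1
      simp
    · rw [if_neg h1, if_neg (fun h => h1 (σ.injective h))]
      simp
  have := LinearMap.congr_fun hL z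
  simpa [L₁, L₂, E] using this

section
variable [Fintype F]

theorem val_of_card_two (hq : Fintype.card F = 2) {r : F} (hr : r ≠ 0) : r = 1 := by
  have h := FiniteField.pow_card r
  rw [hq] at h
  apply mul_left_cancel₀ hr
  linear_combination h

/-- Lines over the field with two elements: a fixed vector. -/
theorem lines_q2 {t : ℕ} {D : Fin t → Submodule F (ι → F)} (hD : IsMDecomposition 1 D) (hq : Fintype.card F = 2) :
    ∃ W : Submodule F (ι → F), W ≠ ⊥ ∧ W ≠ ⊤ ∧ decompositionStabilizer D ≤ subspaceStabilizer W := by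
  classical
  obtain ⟨b, hb⟩ := exists_lines_basis hD
  have ht := hD.two_le
  let w : ι → F := b.equivFun.symm (fun _ => 1)
  have hEw : ∀ i, b.equivFun w i = 1 := by
    intro i
    simp [w]
  have hw0 : w ≠ 0 := by
    intro h
    have := hEw ⟨0, by omega⟩
    rw [h] at this
    simp at this
  have hrank : Module.finrank F (ι → F) = t := by
    rw [Module.finrank_eq_card_basis b, Fintype.card_fin]
  refine ⟨Submodule.span F {w}, ?_, ?_, ?_⟩
  · simpa using hw0
  · intro h
    have h1 : Module.finrank F (Submodule.span F {w}) = 1 := finrank_span_singleton hw0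
    rw [h, finrank_top, hrank] at h1
    omega
  · intro g hg
    obtain ⟨σ, r, hr0, hr⟩ := hb g hg
    have hgw : (g : Matrix ι ι F) *ᵥ w = w := by
      apply b.equivFun.injective
      funext j
      obtain ⟨i, rfl⟩ := σ.surjective j
      rw [hr, hEw, hEw, mul_one]
      exact val_of_card_two hq (hr0 i)
    apply mem_subspaceStabilizer_of_forall_mem
    intro v hv
    obtain ⟨c, rfl⟩ := Submodule.mem_span_singleton.1 hv
    rw [Matrix.mulVec_smul, hgw]
    exact Submodule.smul_mem _ _ (Submodule.mem_span_singleton_self w)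

/-- Lines over the field with three elements: a quadratic form. -/
theorem lines_q3 {t : ℕ} {D : Fin t → Submodule F (ι → F)} (hD : IsMDecomposition 1 D) (hq : Fintype.card F = 3) :
    ∃ Q : (ι → F) → F, IsNondegenerateQuadraticForm Q ∧ decompositionStabilizer D ≤ quadSimilarityGroup Q := by
  classical
  obtain ⟨b, hb⟩ := exists_lines_basis hD
  set E := b.equivFun with hE
  let Q : (ι → F) → F := fun z => ∑ i, (E z i) ^ 2
  have h2 : (2 : F) ≠ 0 := by
    intro h
    have h5 : ((Fintype.card F : ℕ) : F) = 0 := by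
      simpa using (CharP.cast_card_eq_zero F)
    rw [hq] at h5
    have h6 : (3 : F) = 0 := by exact_mod_cast h5
    exact one_ne_zero (α := F) (by linear_combination h6 - h)
  have hpol : ∀ u v, QuadraticMap.polar Q u v = 2 * ∑ i, E u i * E v i := by
    intro u v
    simp only [QuadraticMap.polar, Q, map_add, Pi.add_apply, Finset.mul_sum]
    rw [← Finset.sum_sub_distrib, ← Finset.sum_sub_distrib]
    exact Finset.sum_congr rfl fun i _ => by ring
  refine ⟨Q, ⟨fun c v => ?_, ⟨fun x y v => ?_, fun c x v => ?_, fun v x y => ?_, fun c v x => ?_⟩, fun v hv => ?_⟩, ?_⟩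
  · simp only [Q, map_smul, Pi.smul_apply, smul_eq_mul, Finset.mul_sum]
    exact Finset.sum_congr rfl fun i _ => by ring
  · simp only [hpol, map_add, Pi.add_apply, add_mul, Finset.sum_add_distrib]
    ring
  · simp only [hpol, map_smul, Pi.smul_apply, smul_eq_mul, Finset.mul_sum]
    exact Finset.sum_congr rfl fun i _ => by ring
  · simp only [hpol, map_add, Pi.add_apply, mul_add, Finset.sum_add_distrib]
  · simp only [hpol, map_smul, Pi.smul_apply, smul_eq_mul, Finset.mul_sum]
    exact Finset.sum_congr rfl fun i _ => by ring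
  · obtain ⟨i, hi⟩ : ∃ i, E v i ≠ 0 := by
      by_contra hcon
      push Not at hcon
      exact hv (E.injective (by rw [map_zero]; exact funext hcon))
    have hEb : ∀ j, E (b i) j = if i = j then 1 else 0 := by
      intro j
      simp [hE, Finsupp.single_apply]
    constructor
    · refine ⟨b i, ?_⟩
      rw [hpol]
      simp only [hEb, ite_mul, one_mul, zero_mul, Finset.sum_ite_eq, Finset.mem_univ, if_true]
      exact mul_ne_zero h2 hi
    · refine ⟨b i, ?_⟩
      rw [hpol]
      simp only [hEb, mul_ite, mul_one, mul_zero, Finset.sum_ite_eq, Finset.mem_univ, if_true]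
      exact mul_ne_zero h2 hi
  · intro g hg
    obtain ⟨σ, r, hr0, hr⟩ := hb g hg
    refine ⟨1, fun z => ?_⟩
    simp only [Q, Units.val_one, one_mul]
    rw [← Equiv.sum_comp σ]
    refine Finset.sum_congr rfl fun i _ => ?_
    rw [hr, mul_pow]
    have h3 := FiniteField.pow_card (r i)
    rw [hq] at h3
    have h4 : r i ^ 2 = 1 := by
      apply mul_left_cancel₀ (hr0 i)
      linear_combination h3
    rw [h4, one_mul]

/-- Lines over the field with four elements: a unitary form. -/
theorem lines_q4 {t : ℕ} {D : Fin t → Submodule F (ι → F)} (hD : IsMDecomposition 1 D) (hq : Fintype.card F = 4) :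
    ∃ (σ : F ≃+* F) (f : (ι → F) → (ι → F) → F), IsUnitaryForm σ f ∧ decompositionStabilizer D ≤ similarityGroup f := by
  classical
  obtain ⟨b, hb⟩ := exists_lines_basis hD
  set E := b.equivFun with hE
  have h4 : (4 : F) = 0 := by
    have h5 : ((Fintype.card F : ℕ) : F) = 0 := by
      simpa using (CharP.cast_card_eq_zero F)
    rw [hq] at h5
    exact_mod_cast h5
  have h2 : (2 : F) = 0 := by
    have : (2 : F) * 2 = 0 := by linear_combination h4
    simpa using this
  have hp4 : ∀ x : F, x ^ 4 = x := fun x => by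
    have := FiniteField.pow_card x
    rwa [hq] at this
  have hadd : ∀ x y : F, (x + y) ^ 2 = x ^ 2 + y ^ 2 := fun x y => by
    linear_combination x * y * h2
  have hinj : Function.Injective (fun x : F => x ^ 2) := by
    intro x y h
    have h1 : (x - y) ^ 2 = 0 := by
      have h3 : (x - y) ^ 2 = x ^ 2 - y ^ 2 - 2 * (y * (x - y)) := by ring
      simp only at h
      rw [h3, h, h2]
      ring
    have h3 := pow_eq_zero_iff (n := 2) (by norm_num) |>.1 h1
    exact sub_eq_zero.1 h3
  let s0 : F →+* F :=
    { toFun := fun x => x ^ 2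
      map_one' := one_pow 2
      map_mul' := fun x y => mul_pow x y 2
      map_zero' := by simp
      map_add' := hadd }
  have hinj0 : Function.Injective s0 := hinj
  let s : F ≃+* F := RingEquiv.ofBijective s0 ⟨hinj0, Finite.injective_iff_surjective.1 hinj0⟩
  have hs : ∀ x, s x = x ^ 2 := fun x => rfl
  have hss : ∀ x, s (s x) = x := by
    intro x
    rw [hs, hs, ← pow_mul]
    exact hp4 x
  have hsne : s ≠ RingEquiv.refl F := by
    intro h
    have h1 : ∀ x : F, x = 0 ∨ x = 1 := by
      intro x
      have h3 : s x = x := by rw [h]; rfl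
      rw [hs] at h3
      have h5 : x * (x - 1) = 0 := by linear_combination h3
      rcases mul_eq_zero.1 h5 with h6 | h6
      · exact Or.inl h6
      · exact Or.inr (sub_eq_zero.1 h6)
    have h3 : Fintype.card F ≤ 2 := by
      have : (Finset.univ : Finset F) ⊆ {0, 1} := by
        intro x _
        simpa using h1 x
      have h5 := Finset.card_le_card this
      have h6 := Finset.card_le_two (a := (0 : F)) (b := 1)
      rw [Finset.card_univ] at h5
      omega
    omega
  let f : (ι → F) → (ι → F) → F := fun u v => ∑ i, E u i * s (E v i)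
  refine ⟨s, f, ⟨hsne, hss, fun x y v => ?_, fun c x v => ?_, fun v w => ?_, fun v hv => ?_⟩, ?_⟩
  · simp only [f, map_add, Pi.add_apply, add_mul, Finset.sum_add_distrib]
  · simp only [f, map_smul, Pi.smul_apply, smul_eq_mul, Finset.mul_sum, mul_assoc]
  · simp only [f, map_sum, map_mul, hss]
    exact Finset.sum_congr rfl fun i _ => mul_comm _ _
  · obtain ⟨i, hi⟩ : ∃ i, E v i ≠ 0 := by
      by_contra hcon
      push Not at hcon
      exact hv (E.injective (by rw [map_zero]; exact funext hcon))
    have hEb : ∀ j, E (b i) j = if i = j then 1 else 0 := by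
      intro j
      simp [hE, Finsupp.single_apply]
    constructor
    · refine ⟨b i, ?_⟩
      simp only [f, hEb, ite_mul, one_mul, zero_mul, Finset.sum_ite_eq, Finset.mem_univ, if_true]
      exact (map_ne_zero s).2 hi
    · refine ⟨b i, ?_⟩
      simp only [f, hEb, apply_ite s, map_one, map_zero, mul_ite, mul_one, mul_zero, Finset.sum_ite_eq, Finset.mem_univ, if_true]
      exact hi
  · intro g hg
    obtain ⟨σ, r, hr0, hr⟩ := hb g hg
    refine ⟨1, fun u v => ?_⟩
    simp only [f, Units.val_one, one_mul]
    rw [← Equiv.sum_comp σ]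
    refine Finset.sum_congr rfl fun i _ => ?_
    rw [hr, hr, map_mul, hs (r i)]
    have h3 := hp4 (r i)
    have h5 : r i ^ 3 = 1 := by
      apply mul_left_cancel₀ (hr0 i)
      linear_combination h3
    linear_combination (E u i * s (E v i)) * h5

end

end Cfsg.Agent.Lib.CmaxL.Lines
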