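/-
Decompositions into planes over small fields: the stabiliser preserves a symplectic form.
-/
import Cfsg.Agent.Lib.CmaxL.Lines

set_option autoImplicit false

namespace Cfsg.Agent.Lib.CmaxL.Planes

open Matrix Module Cfsg Cfsg.Geo Cfsg.Agent.Lib.Geo.Basic
open scoped MatrixGroups

universe u

variable {ι : Type} [Fintype ι] [DecidableEq ι] {F : Type u} [Field F]

/-- A basis adapted to a decomposition into planes. -/
theorem exists_planes_basis {t : ℕ} {D : Fin t → Submodule F (ι → F)} (hD : IsMDecomposition 2 D) :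
    ∃ b : Module.Basis (Fin t × Fin 2) F (ι → F), ∀ g ∈ decompositionStabilizer D,
      ∃ (σ : Equiv.Perm (Fin t)) (A : Fin t → Matrix (Fin 2) (Fin 2) F), (∀ i, (A i).det ≠ 0) ∧
        ∀ z i k, b.equivFun ((g : Matrix ι ι F) *ᵥ z) (σ i, k) = ∑ l, A i k l * b.equivFun z (i, l) := by
  classical
  let bs : ∀ i, Module.Basis (Fin 2) F (D i) := fun i => Module.finBasisOfFinrankEq F (D i) (hD.finrank_eq i)
  have hint : DirectSum.IsInternal D :=
    DirectSum.isInternal_submodule_of_iSupIndep_of_iSup_eq_top hD.indep hD.iSup_eq_top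
  let cb := hint.collectedBasis bs
  let b : Module.Basis (Fin t × Fin 2) F (ι → F) := cb.reindex (Equiv.sigmaEquivProd (Fin t) (Fin 2))
  have hb : ∀ i k, b (i, k) = (bs i k : ι → F) := by
    intro i k
    simp [b, cb, Module.Basis.reindex_apply, hint.collectedBasis_coe]
  set E := b.equivFun with hE
  have hEb : ∀ c d, E (b c) d = if c = d then 1 else 0 := by
    intro c d
    simp [hE, Finsupp.single_apply]
  have hEz : ∀ {j j' : Fin t} {x : ι → F}, x ∈ D j → j' ≠ j → ∀ k, E x (j', k) = 0 := by
    intro j j' x hx hj k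
    have h1 : x = ∑ l, (bs j).repr ⟨x, hx⟩ l • b (j, l) := by
      have h2 := (bs j).sum_repr ⟨x, hx⟩
      have h3 := congrArg Subtype.val h2
      simp only [Submodule.coe_sum, Submodule.coe_smul] at h3
      simp only [hb]
      exact h3.symm
    rw [h1, map_sum, Finset.sum_apply]
    refine Finset.sum_eq_zero fun l _ => ?_
    rw [map_smul, Pi.smul_apply, hEb, if_neg (fun h => hj (congrArg Prod.fst h).symm), smul_zero]
  refine ⟨b, ?_⟩
  rintro g ⟨σ, hσ⟩
  have hgD : ∀ {i : Fin t} {x : ι → F}, x ∈ D i → (g : Matrix ι ι F) *ᵥ x ∈ D (σ i) := by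
    intro i x hx
    rw [← hσ i]
    exact ⟨x, hx, rfl⟩
  have hbD : ∀ i k, b (i, k) ∈ D i := by
    intro i k
    rw [hb]
    exact (bs i k).2
  let A : Fin t → Matrix (Fin 2) (Fin 2) F := fun i k l => E ((g : Matrix ι ι F) *ᵥ b (i, l)) (σ i, k)
  have hform : ∀ z i k, E ((g : Matrix ι ι F) *ᵥ z) (σ i, k) = ∑ l, A i k l * E z (i, l) := by
    intro z i k
    let L₁ : (ι → F) →ₗ[F] F := (LinearMap.proj (σ i, k)) ∘ₗ E.toLinearMap ∘ₗ Matrix.toLin' (g : Matrix ι ι F)
    let L₂ : (ι → F) →ₗ[F] F := ∑ l, A i k l • ((LinearMap.proj (i, l)) ∘ₗ E.toLinearMap)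
    have hL : L₁ = L₂ := by
      refine b.ext fun c => ?_
      obtain ⟨j, l'⟩ := c
      simp only [L₁, L₂, LinearMap.comp_apply, LinearEquiv.coe_coe, Matrix.toLin'_apply,
        LinearMap.proj_apply, LinearMap.sum_apply, LinearMap.smul_apply, smul_eq_mul]
      by_cases hj : j = i
      · subst hj
        simp only [hEb, Prod.mk.injEq, true_and, mul_ite, mul_one, mul_zero, Finset.sum_ite_eq, Finset.mem_univ, if_true, A]
      · rw [hEz (hgD (hbD j l')) (fun h => hj (σ.injective h).symm) k]
        symm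
        refine Finset.sum_eq_zero fun l _ => ?_
        rw [hEb, if_neg (fun h => hj (congrArg Prod.fst h)), mul_zero]
    have := LinearMap.congr_fun hL z
    simpa [L₁, L₂] using this
  refine ⟨σ, A, fun i hdet => ?_, hform⟩
  obtain ⟨x, hx0, hx⟩ := Matrix.exists_mulVec_eq_zero_iff.2 hdet
  let w : ι → F := ∑ l, x l • b (i, l)
  have hw : ∀ j l, E w (j, l) = if j = i then x l else 0 := by
    intro j l
    simp only [w, map_sum, Finset.sum_apply, map_smul, Pi.smul_apply, hEb, smul_eq_mul, Prod.mk.injEq]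
    by_cases hj : j = i
    · subst hj
      simp
    · have : ¬ i = j := fun h => hj h.symm
      simp [hj, this]
  have hgw : (g : Matrix ι ι F) *ᵥ w = 0 := by
    apply E.injective
    rw [map_zero]
    funext c
    obtain ⟨j', k⟩ := c
    obtain ⟨j, rfl⟩ := σ.surjective j'
    rw [hform]
    simp only [hw]
    by_cases hj : j = i
    · subst hj
      have h1 := congrFun hx k
      simp only [Matrix.mulVec, dotProduct, Pi.zero_apply] at h1
      simpa using h1
    · simp [hj]
  have hw0 : w = 0 := by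
    have := inv_mulVec_mulVec g w
    rw [hgw, Matrix.mulVec_zero] at this
    exact this.symm
  apply hx0
  funext l
  have := hw i l
  rw [hw0] at this
  simpa using this.symm

/-- The standard form attached to a basis indexed by pairs. -/
def omegaF {t : ℕ} (E : (ι → F) → (Fin t × Fin 2 → F)) : (ι → F) → (ι → F) → F :=
  fun u v => ∑ i, (E u (i, 0) * E v (i, 1) - E u (i, 1) * E v (i, 0))

theorem omegaF_symp {t : ℕ} (b : Module.Basis (Fin t × Fin 2) F (ι → F)) :
    IsSymplecticForm (omegaF (t := t) (ι := ι) (F := F) b.equivFun) := by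
  classical
  set E := b.equivFun with hE
  have hEb : ∀ c d, E (b c) d = if c = d then 1 else 0 := by
    intro c d
    simp [hE, Finsupp.single_apply]
  have hskew : ∀ v w, omegaF (t := t) E v w = - omegaF (t := t) E w v := by
    intro v w
    simp only [omegaF, ← Finset.sum_neg_distrib]
    exact Finset.sum_congr rfl fun i _ => by ring
  refine ⟨⟨fun x y v => ?_, fun c x v => ?_, fun v x y => ?_, fun c v x => ?_⟩, hskew, fun v => ?_, fun v hv => ?_⟩
  · simp only [omegaF, ← hE, map_add, Pi.add_apply, ← Finset.sum_add_distrib]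
    exact Finset.sum_congr rfl fun i _ => by ring
  · simp only [omegaF, ← hE, map_smul, Pi.smul_apply, smul_eq_mul, Finset.mul_sum]
    exact Finset.sum_congr rfl fun i _ => by ring
  · simp only [omegaF, ← hE, map_add, Pi.add_apply, ← Finset.sum_add_distrib]
    exact Finset.sum_congr rfl fun i _ => by ring
  · simp only [omegaF, ← hE, map_smul, Pi.smul_apply, smul_eq_mul, Finset.mul_sum]
    exact Finset.sum_congr rfl fun i _ => by ring
  · simp only [omegaF, ← hE]
    exact Finset.sum_eq_zero fun i _ => by ring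
  · obtain ⟨c, hc⟩ : ∃ c, E v c ≠ 0 := by
      by_contra hcon
      push Not at hcon
      exact hv (E.injective (by rw [map_zero]; exact funext hcon))
    obtain ⟨i, k⟩ := c
    have key : ∃ x, omegaF (t := t) E x v ≠ 0 := by
      by_cases hk : k = 0
      · subst hk
        refine ⟨-b (i, 1), ?_⟩
        simp only [omegaF, map_neg, Pi.neg_apply, hEb, Prod.mk.injEq]
        rw [Finset.sum_eq_single i]
        · simpa using hc
        · intro j _ hj
          simp [hj.symm]
        · simp
      · have hk1 : k = 1 := by omega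
        subst hk1
        refine ⟨b (i, 0), ?_⟩
        simp only [omegaF, hEb, Prod.mk.injEq]
        rw [Finset.sum_eq_single i]
        · simpa using hc
        · intro j _ hj
          simp [hj.symm]
        · simp
    obtain ⟨x, hx⟩ := key
    refine ⟨⟨x, hx⟩, ⟨x, ?_⟩⟩
    rw [hskew]
    exact neg_ne_zero.2 hx

theorem omegaF_mul {t : ℕ} {b : Module.Basis (Fin t × Fin 2) F (ι → F)} {g : GL ι F} {σ : Equiv.Perm (Fin t)}
    {A : Fin t → Matrix (Fin 2) (Fin 2) F}
    (h : ∀ z i k, b.equivFun ((g : Matrix ι ι F) *ᵥ z) (σ i, k) = ∑ l, A i k l * b.equivFun z (i, l)) (u v : ι → F) :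
    omegaF (t := t) b.equivFun ((g : Matrix ι ι F) *ᵥ u) ((g : Matrix ι ι F) *ᵥ v) =
      ∑ i, (A i).det * (b.equivFun u (i, 0) * b.equivFun v (i, 1) - b.equivFun u (i, 1) * b.equivFun v (i, 0)) := by
  simp only [omegaF]
  rw [← Equiv.sum_comp σ]
  refine Finset.sum_congr rfl fun i _ => ?_
  rw [h, h, h, h]
  simp only [Fin.sum_univ_two, Matrix.det_fin_two]
  ring

/-- Planes over the field with two elements: a symplectic form. -/
theorem planes_q2 [Fintype F] {t : ℕ} {D : Fin t → Submodule F (ι → F)} (hD : IsMDecomposition 2 D)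
    (hq : Fintype.card F = 2) :
    ∃ f : (ι → F) → (ι → F) → F, IsSymplecticForm f ∧ decompositionStabilizer D ≤ similarityGroup f := by
  classical
  obtain ⟨b, hb⟩ := exists_planes_basis hD
  refine ⟨omegaF (t := t) b.equivFun, omegaF_symp b, fun g hg => ?_⟩
  obtain ⟨σ, A, hA0, hA⟩ := hb g hg
  refine ⟨1, fun u v => ?_⟩
  rw [omegaF_mul hA]
  simp only [Units.val_one, one_mul, omegaF]
  refine Finset.sum_congr rfl fun i _ => ?_
  rw [Cfsg.Agent.Lib.CmaxL.Lines.val_of_card_two hq (hA0 i), one_mul]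

theorem det4_diag (a b c d e f g h : F) :
    Matrix.det !![a, b, 0, 0; c, d, 0, 0; 0, 0, e, f; 0, 0, g, h] = (a * d - b * c) * (e * h - f * g) := by
  rw [Matrix.det_succ_row_zero]
  simp [Fin.sum_univ_succ, Matrix.det_fin_three, Fin.succAbove]
  ring

theorem det4_swap (a b c d e f g h : F) :
    Matrix.det !![0, 0, e, f; 0, 0, g, h; a, b, 0, 0; c, d, 0, 0] = (a * d - b * c) * (e * h - f * g) := by
  rw [Matrix.det_succ_row_zero]
  simp [Fin.sum_univ_succ, Matrix.det_fin_three, Fin.succAbove]
  ring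

theorem perm_two : ∀ σ : Equiv.Perm (Fin 2), σ = 1 ∨ σ = Equiv.swap 0 1 := by
  decide

/-- Two planes over the field with three elements: a symplectic form. -/
theorem planes_two_q3 [Fintype F] {n : ℕ} {D : Fin 2 → Submodule F (Fin n → F)} (hD : IsMDecomposition 2 D)
    (hq : Fintype.card F = 3) :
    ∃ f : (Fin n → F) → (Fin n → F) → F, IsSymplecticForm f ∧
      decompositionStabilizer D ⊓ specialLinear (Fin n) F ≤ similarityGroup f := by
  classical
  obtain ⟨b, hb⟩ := exists_planes_basis hD
  refine ⟨omegaF (t := 2) b.equivFun, omegaF_symp b, fun g hg => ?_⟩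
  obtain ⟨σ, A, hA0, hA⟩ := hb g hg.1
  have hdetg : (g : Matrix (Fin n) (Fin n) F).det = 1 := (mem_specialLinear_iff g).1 hg.2
  -- the matrix of `g`
  set M := LinearMap.toMatrix b b (Matrix.toLin' (g : Matrix (Fin n) (Fin n) F)) with hM
  have hMdet : M.det = 1 := by
    rw [hM, LinearMap.det_toMatrix, LinearMap.det_toLin', hdetg]
  have hEb : ∀ c d, b.equivFun (b c) d = if c = d then 1 else 0 := by
    intro c d
    simp [Finsupp.single_apply]
  have hMe : ∀ (j : Fin 2) (i : Fin 2) (k l : Fin 2), M (σ j, k) (i, l) = if j = i then A j k l else 0 := by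
    intro j i k l
    have h1 : M (σ j, k) (i, l) = b.equivFun ((g : Matrix (Fin n) (Fin n) F) *ᵥ b (i, l)) (σ j, k) := by
      rw [hM, LinearMap.toMatrix_apply, Matrix.toLin'_apply]
      simp
    rw [h1, hA]
    simp only [hEb, Prod.mk.injEq]
    by_cases hj : j = i
    · subst hj
      simp
    · have : ¬ i = j := fun h => hj h.symm
      simp [hj, this]
  let p : Fin 4 ≃ Fin 2 × Fin 2 := (finProdFinEquiv : Fin 2 × Fin 2 ≃ Fin (2 * 2)).symm
  have hp0 : p 0 = (0, 0) := by decide
  have hp1 : p 1 = (0, 1) := by decide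
  have hp2 : p 2 = (1, 0) := by decide
  have hp3 : p 3 = (1, 1) := by decide
  have hNdet : (M.submatrix p p).det = 1 := by
    rw [Matrix.det_submatrix_equiv_self, hMdet]
  have hprod : (A 0).det * (A 1).det = 1 := by
    rcases perm_two σ with rfl | rfl
    · have hMe' : ∀ (j i k l : Fin 2), M (j, k) (i, l) = if j = i then A j k l else 0 := hMe
      have hN : M.submatrix p p = !![A 0 0 0, A 0 0 1, 0, 0; A 0 1 0, A 0 1 1, 0, 0; 0, 0, A 1 0 0, A 1 0 1; 0, 0, A 1 1 0, A 1 1 1] := by
        ext x y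
        fin_cases x <;> fin_cases y <;> simp [hp0, hp1, hp2, hp3, hMe']
      rw [hN, det4_diag] at hNdet
      rw [Matrix.det_fin_two, Matrix.det_fin_two]
      exact hNdet
    · have hMe' : ∀ (j i k l : Fin 2), M (Equiv.swap 0 1 j, k) (i, l) = if j = i then A j k l else 0 := hMe
      have h0 : ∀ k i l, M (0, k) (i, l) = if 1 = i then A 1 k l else 0 := by
        intro k i l
        have := hMe' 1 i k l
        simpa using this
      have h1 : ∀ k i l, M (1, k) (i, l) = if 0 = i then A 0 k l else 0 := by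
        intro k i l
        have := hMe' 0 i k l
        simpa using this
      have hN : M.submatrix p p = !![0, 0, A 1 0 0, A 1 0 1; 0, 0, A 1 1 0, A 1 1 1; A 0 0 0, A 0 0 1, 0, 0; A 0 1 0, A 0 1 1, 0, 0] := by
        ext x y
        fin_cases x <;> fin_cases y <;> simp [hp0, hp1, hp2, hp3, h0, h1]
      rw [hN, det4_swap] at hNdet
      rw [Matrix.det_fin_two, Matrix.det_fin_two]
      exact hNdet
  have hsq : (A 0).det ^ 2 = 1 := by
    have h3 := FiniteField.pow_card (A 0).det
    rw [hq] at h3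
    apply mul_left_cancel₀ (hA0 0)
    linear_combination h3
  have heq : (A 1).det = (A 0).det := by
    calc (A 1).det = (A 0).det ^ 2 * (A 1).det := by rw [hsq, one_mul]
      _ = (A 0).det * ((A 0).det * (A 1).det) := by ring
      _ = (A 0).det := by rw [hprod, mul_one]
  refine ⟨Units.mk0 _ (hA0 0), fun u v => ?_⟩
  rw [omegaF_mul hA]
  simp only [Fin.sum_univ_two, omegaF, Units.val_mk0, heq]
  ring

end Cfsg.Agent.Lib.CmaxL.Planes
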