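/-
Tensor decompositions with a factor of dimension two over the field with two elements: the stabiliser normalises a
quadratic extension field.
-/
import Cfsg.Agent.Lib.CmaxL.Planes
import Cfsg.Agent.Lib.NotMax.TensorTwo
import Cfsg.Agent.Lib.ExtField.Top

set_option autoImplicit false

namespace Cfsg.Agent.Lib.CmaxL.TensorQ2

open Matrix Module Cfsg Cfsg.Geo Cfsg.Agent.Lib.Geo.Basic
open scoped MatrixGroups Kronecker

universe u

variable {n : ℕ} {F : Type u} [Field F]

/-- The quadratic field generated by a matrix with `J² = J + 1`. -/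
def KJ (J : Matrix (Fin n) (Fin n) F) (h : J * J = J + 1) : Subalgebra F (Matrix (Fin n) (Fin n) F) where
  carrier := {x | ∃ a b : F, x = a • 1 + b • J}
  mul_mem' := by
    rintro _ _ ⟨a, b, rfl⟩ ⟨c, d, rfl⟩
    refine ⟨a * c + b * d, a * d + b * c + b * d, ?_⟩
    simp only [add_mul, mul_add, smul_mul_assoc, mul_smul_comm, one_mul, mul_one, h, smul_add, smul_smul]
    module
  add_mem' := by
    rintro _ _ ⟨a, b, rfl⟩ ⟨c, d, rfl⟩
    exact ⟨a + c, b + d, by module⟩
  algebraMap_mem' := fun r => ⟨r, 0, by simp [Algebra.algebraMap_eq_smul_one]⟩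

theorem mem_KJ {J : Matrix (Fin n) (Fin n) F} {h : J * J = J + 1} {x : Matrix (Fin n) (Fin n) F} :
    x ∈ KJ J h ↔ ∃ a b : F, x = a • 1 + b • J := Iff.rfl

theorem KJ_field [Fintype F] (hn : 0 < n) (hq : Fintype.card F = 2) (J : Matrix (Fin n) (Fin n) F) (h : J * J = J + 1) :
    IsFieldSubalgebra 2 (KJ J h) := by
  classical
  have h2 : (2 : F) = 0 := Cfsg.Agent.Lib.NotMax.Sp2.two_eq_zero hq
  have h01 := Cfsg.Agent.Lib.NotMax.Sp2.eq_zero_or_one hq
  let i₀ : Fin n := ⟨0, hn⟩
  have hone : (1 : Matrix (Fin n) (Fin n) F) ≠ 0 := by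
    intro h1
    have := congrFun (congrFun h1 i₀) i₀
    simp at this
  have hns : ∀ c : F, J ≠ c • 1 := by
    intro c hc
    rw [hc] at h
    have h3 := congrFun (congrFun h i₀) i₀
    simp only [smul_mul_assoc, mul_smul_comm, mul_one, smul_smul, Matrix.add_apply, Matrix.smul_apply,
      Matrix.one_apply_eq, smul_eq_mul] at h3
    rcases h01 c with rfl | rfl
    · simp at h3
    · have h4 : (1 : F) + 1 = 0 := by linear_combination h2
      simp [h4] at h3
  refine ⟨?_, ?_, ?_⟩
  · rintro _ ⟨a, b, rfl⟩ _ ⟨c, d, rfl⟩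
    simp only [add_mul, mul_add, smul_mul_assoc, mul_smul_comm, one_mul, mul_one, smul_smul]
    module
  · rintro _ ⟨a, b, rfl⟩ hx
    refine ⟨(a + b) • 1 + b • J, ⟨a + b, b, rfl⟩, ?_⟩
    have hN : a * (a + b) + b * b = 1 := by
      rcases h01 a with rfl | rfl <;> rcases h01 b with rfl | rfl
      · simp at hx
      · simp
      · simp
      · linear_combination h2
    have key : (a • (1 : Matrix (Fin n) (Fin n) F) + b • J) * ((a + b) • 1 + b • J) =
        (a * (a + b) + b * b) • (1 : Matrix (Fin n) (Fin n) F) + (2 * (a * b + b * b)) • J := by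
      simp only [add_mul, mul_add, smul_mul_assoc, mul_smul_comm, one_mul, mul_one, h, smul_add, smul_smul]
      module
    rw [key, hN, h2, zero_mul, zero_smul, add_zero, one_smul]
  · -- the dimension
    let φ : (F × F) →ₗ[F] Matrix (Fin n) (Fin n) F :=
      (LinearMap.toSpanSingleton F _ 1).coprod (LinearMap.toSpanSingleton F _ J)
    have hφ : ∀ p : F × F, φ p = p.1 • 1 + p.2 • J := fun p => by
      simp [φ, LinearMap.coprod_apply]
    have hinj : Function.Injective φ := by
      rw [injective_iff_map_eq_zero]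
      rintro ⟨a, b⟩ hp
      rw [hφ] at hp
      simp only at hp
      by_cases hb : b = 0
      · subst hb
        rw [zero_smul, add_zero, smul_eq_zero] at hp
        rcases hp with rfl | hp
        · rfl
        · exact absurd hp hone
      · exfalso
        apply hns (-(b⁻¹ * a))
        have h3 : J = b⁻¹ • (b • J) := by
          rw [smul_smul, inv_mul_cancel₀ hb, one_smul]
        rw [h3, eq_neg_of_add_eq_zero_right hp, smul_neg, smul_smul, neg_smul]
    let ψ : (F × F) →ₗ[F] KJ J h := LinearMap.codRestrict (KJ J h).toSubmodule φ (fun p => by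
      rw [hφ]
      exact ⟨p.1, p.2, rfl⟩)
    have hψb : Function.Bijective ψ := by
      constructor
      · intro p q hpq
        apply hinj
        exact congrArg Subtype.val hpq
      · rintro ⟨x, a, b, rfl⟩
        refine ⟨(a, b), Subtype.ext ?_⟩
        show φ (a, b) = _
        rw [hφ]
    have := (LinearEquiv.ofBijective ψ hψb).finrank_eq
    rw [← this]
    simp

theorem invNorm_le_KJ [Fintype F] (hn : 0 < n) (h2 : (2 : F) = 0) (J : GL (Fin n) F)
    (h : (J : Matrix (Fin n) (Fin n) F) * J = J + 1) :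
    Cfsg.Agent.Lib.NotMax.Tensor.invNorm J ≤ subalgebraNormalizer (KJ (J : Matrix (Fin n) (Fin n) F) h) := by
  classical
  have hinv : ((J⁻¹ : GL (Fin n) F) : Matrix (Fin n) (Fin n) F) = J + 1 := by
    have h3 : (J : Matrix (Fin n) (Fin n) F) * (J + 1) = 1 := by
      rw [mul_add, h, mul_one]
      have : (J : Matrix (Fin n) (Fin n) F) + 1 + J = (2 : F) • (J : Matrix (Fin n) (Fin n) F) + 1 := by
        rw [two_smul]
        abel
      rw [this, h2, zero_smul, zero_add]
    calc ((J⁻¹ : GL (Fin n) F) : Matrix (Fin n) (Fin n) F)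
        = ((J⁻¹ : GL (Fin n) F) : Matrix (Fin n) (Fin n) F) * ((J : Matrix (Fin n) (Fin n) F) * (J + 1)) := by
          rw [h3, mul_one]
      _ = J + 1 := by
          rw [← mul_assoc, ← Units.val_mul, inv_mul_cancel, Units.val_one, one_mul]
  have hconj : ∀ g ∈ Cfsg.Agent.Lib.NotMax.Tensor.invNorm J, ∀ c ∈ KJ (J : Matrix (Fin n) (Fin n) F) h,
      (g : Matrix (Fin n) (Fin n) F) * c * ((g⁻¹ : GL (Fin n) F) : Matrix (Fin n) (Fin n) F) ∈ KJ (J : Matrix (Fin n) (Fin n) F) h := by
    rintro g hg _ ⟨a, b, rfl⟩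
    have hgg : (g : Matrix (Fin n) (Fin n) F) * ((g⁻¹ : GL (Fin n) F) : Matrix (Fin n) (Fin n) F) = 1 := by
      rw [← Units.val_mul, mul_inv_cancel, Units.val_one]
    have e : (g : Matrix (Fin n) (Fin n) F) * (a • 1 + b • (J : Matrix (Fin n) (Fin n) F)) * ((g⁻¹ : GL (Fin n) F) : Matrix (Fin n) (Fin n) F) =
        a • 1 + b • ((g * J * g⁻¹ : GL (Fin n) F) : Matrix (Fin n) (Fin n) F) := by
      simp only [Units.val_mul, mul_add, add_mul, smul_mul_assoc, mul_smul_comm, mul_one, hgg]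
    rw [e]
    rcases hg with hg | hg
    · rw [hg]
      exact ⟨a, b, rfl⟩
    · rw [hg, hinv]
      exact ⟨a + b, b, by module⟩
  intro g hg
  refine (Cfsg.Agent.Lib.ExtField.Top.mem_norm_iff _ g).2 ⟨hconj g hg, fun c hc => ?_⟩
  have := hconj g⁻¹ (inv_mem hg) c hc
  rwa [inv_inv] at this

/-- Tensor decompositions with a two dimensional factor over the field with two elements. -/
theorem tensor_q2 [Fintype F] {l : ℕ} (hn : 0 < n) (hq : Fintype.card F = 2) (e : Fin n ≃ Fin 2 × Fin l)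
    (P : GL (Fin n) F) :
    ∃ K : Subalgebra F (Matrix (Fin n) (Fin n) F), IsFieldSubalgebra 2 K ∧
      tensorProductSubgroup 2 l e P ≤ subalgebraNormalizer K := by
  classical
  have h2 : (2 : F) = 0 := Cfsg.Agent.Lib.NotMax.Sp2.two_eq_zero hq
  set J := Cfsg.Agent.Lib.NotMax.Tensor.Psi e P (Cfsg.Agent.Lib.NotMax.Tensor.J0 (l := l) h2) with hJ
  set A : Matrix (Fin 2 × Fin l) (Fin 2 × Fin l) F := ((Cfsg.Agent.Lib.NotMax.Tensor.J0 (l := l) h2 : GL (Fin 2 × Fin l) F) : Matrix (Fin 2 × Fin l) (Fin 2 × Fin l) F) with hA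
  have hAA : A * A = A + 1 := by
    have h3 : A = (!![0, 1; 1, 1] : Matrix (Fin 2) (Fin 2) F) ⊗ₖ (1 : Matrix (Fin l) (Fin l) F) := rfl
    have h4 : (!![0, 1; 1, 1] : Matrix (Fin 2) (Fin 2) F) * !![0, 1; 1, 1] = !![0, 1; 1, 1] + 1 := by
      ext i j
      fin_cases i <;> fin_cases j <;> simp [Matrix.mul_apply, Fin.sum_univ_two]
    rw [h3, ← Matrix.mul_kronecker_mul, h4, mul_one, Matrix.add_kronecker, Matrix.one_kronecker_one]
  have hval : (J : Matrix (Fin n) (Fin n) F) = (P : Matrix (Fin n) (Fin n) F) * (A.submatrix e e) * ((P⁻¹ : GL (Fin n) F) : Matrix (Fin n) (Fin n) F) := by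
    rw [hJ, Cfsg.Agent.Lib.NotMax.Tensor.Psi_val]
    rfl
  have hPP : ((P⁻¹ : GL (Fin n) F) : Matrix (Fin n) (Fin n) F) * (P : Matrix (Fin n) (Fin n) F) = 1 := by
    rw [← Units.val_mul, inv_mul_cancel, Units.val_one]
  have hPP' : (P : Matrix (Fin n) (Fin n) F) * ((P⁻¹ : GL (Fin n) F) : Matrix (Fin n) (Fin n) F) = 1 := by
    rw [← Units.val_mul, mul_inv_cancel, Units.val_one]
  have hJJ : (J : Matrix (Fin n) (Fin n) F) * J = J + 1 := by
    have e1 : A.submatrix e e * A.submatrix e e = A.submatrix e e + 1 := by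
      rw [Matrix.submatrix_mul_equiv, hAA]
      ext i j
      simp [Matrix.one_apply, e.injective.eq_iff]
    calc (J : Matrix (Fin n) (Fin n) F) * J
        = (P : Matrix (Fin n) (Fin n) F) * (A.submatrix e e * (((P⁻¹ : GL (Fin n) F) : Matrix (Fin n) (Fin n) F) * (P : Matrix (Fin n) (Fin n) F)) * A.submatrix e e) * ((P⁻¹ : GL (Fin n) F) : Matrix (Fin n) (Fin n) F) := by
          rw [hval]
          simp only [mul_assoc]
      _ = (P : Matrix (Fin n) (Fin n) F) * (A.submatrix e e + 1) * ((P⁻¹ : GL (Fin n) F) : Matrix (Fin n) (Fin n) F) := by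
          rw [hPP, mul_one, e1]
      _ = J + 1 := by
          rw [hval, mul_add, add_mul, mul_one, hPP']
  refine ⟨KJ (J : Matrix (Fin n) (Fin n) F) hJJ, KJ_field hn hq _ hJJ, ?_⟩
  exact (Cfsg.Agent.Lib.NotMax.Tensor.tensor_le_invNorm hq e P).trans (invNorm_le_KJ hn h2 J hJJ)

end Cfsg.Agent.Lib.CmaxL.TensorQ2
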