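/-
Maximal subgroups of `SL_n(q)`, `n ≥ 3`: Aschbacher's theorem in the form of a list of intersections with `SL_n(q)`.
-/
import Cfsg.Agent.Lib.CmaxL.TensorQ2
import Cfsg.Agent.Lib.Elusive.FieldSub

set_option autoImplicit false

namespace Cfsg.Agent.Lib.CmaxL.Master

open Matrix Module Cfsg Cfsg.Geo Cfsg.Agent.Lib.Geo.Basic Cfsg.Agent.Lib.CmaxL.Proper Cfsg.Agent.Lib.CmaxL.Proper2
open scoped MatrixGroups

universe u

variable {ι : Type} [Fintype ι] [DecidableEq ι] {n : ℕ} {F : Type u} [Field F]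

theorem eq_inf_of_le {H M : Subgroup (GL ι F)} (hH : IsMaximalIn (specialLinear ι F) H) (hHM : H ≤ M)
    (hne : ¬ specialLinear ι F ≤ M) : H = M ⊓ specialLinear ι F := by
  have h1 : H ≤ M ⊓ specialLinear ι F := le_inf hHM hH.1.le
  rcases hH.2 _ h1 inf_le_right with h | h
  · exact h.symm
  · exact absurd (h ▸ inf_le_left : specialLinear ι F ≤ M) hne

theorem not_le_sub {W : Submodule F (ι → F)} (h0 : W ≠ ⊥) (h1 : W ≠ ⊤) :
    ¬ specialLinear ι F ≤ subspaceStabilizer W := by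
  intro h
  have h2 := Cfsg.Agent.Lib.Geo.Parabolic.subspaceStabilizer_inf_lt_specialLinear W h0 h1
  rw [inf_eq_right.2 h] at h2
  exact lt_irrefl _ h2

/-- The dimension of a decomposition. -/
theorem decomp_card {t m : ℕ} {D : Fin t → Submodule F (ι → F)} (hD : IsMDecomposition m D) :
    t * m = Fintype.card ι := by
  classical
  let bs : ∀ i, Module.Basis (Fin m) F (D i) := fun i => Module.finBasisOfFinrankEq F (D i) (hD.finrank_eq i)
  have hint : DirectSum.IsInternal D :=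
    DirectSum.isInternal_submodule_of_iSupIndep_of_iSup_eq_top hD.indep hD.iSup_eq_top
  have h1 := Module.finrank_eq_card_basis (hint.collectedBasis bs)
  simp only [Module.finrank_fintype_fun_eq_card, Fintype.card_sigma, Fintype.card_fin, Finset.sum_const,
    Finset.card_univ, smul_eq_mul] at h1
  exact h1.symm

/-- The degree of an extension field divides the dimension. -/
theorem field_dvd {r : ℕ} (hr0 : 0 < r) {K : Subalgebra F (Matrix (Fin n) (Fin n) F)} (hK : IsFieldSubalgebra r K) :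
    r ∣ n := by
  classical
  obtain ⟨L, _, _, ρ, -, -, hdim⟩ := Cfsg.Agent.Lib.Elusive.FieldSub.exists_field_model hK hr0
  letI mL : Module L (Fin n → F) :=
    { smul := fun c v => (ρ c) *ᵥ v
      one_smul := fun v => by
        show (ρ 1) *ᵥ v = v
        rw [map_one, Matrix.one_mulVec]
      mul_smul := fun a b v => by
        show (ρ (a * b)) *ᵥ v = (ρ a) *ᵥ ((ρ b) *ᵥ v)
        rw [map_mul, Matrix.mulVec_mulVec]
      smul_zero := fun a => Matrix.mulVec_zero _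
      smul_add := fun a x y => Matrix.mulVec_add _ x y
      add_smul := fun a b v => by
        show (ρ (a + b)) *ᵥ v = (ρ a) *ᵥ v + (ρ b) *ᵥ v
        rw [map_add, Matrix.add_mulVec]
      zero_smul := fun v => by
        show (ρ 0) *ᵥ v = 0
        rw [map_zero, Matrix.zero_mulVec] }
  have hsmul : ∀ (c : L) (v : Fin n → F), c • v = (ρ c) *ᵥ v := fun c v => rfl
  haveI tL : IsScalarTower F L (Fin n → F) :=
    ⟨fun f c v => by
      rw [hsmul, hsmul, map_smul]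
      exact Matrix.smul_mulVec _ _ _⟩
  have h1 := Module.finrank_mul_finrank F L (Fin n → F)
  rw [hdim, Module.finrank_fintype_fun_eq_card, Fintype.card_fin] at h1
  exact ⟨_, h1.symm⟩

theorem subfield_ne_top [Fintype F] {F₀ : Subfield F} {r : ℕ} (hr : r.Prime) (hc : Fintype.card F = Nat.card F₀ ^ r) :
    F₀ ≠ ⊤ := by
  rintro rfl
  have h1 : Nat.card (⊤ : Subfield F) = Fintype.card F := by
    rw [Nat.card_congr Subfield.topEquiv.toEquiv, Nat.card_eq_fintype_card]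
  rw [h1] at hc
  have h2 : 1 < Fintype.card F := Fintype.one_lt_card
  have h3 := Nat.pow_lt_pow_right h2 hr.one_lt
  rw [pow_one, ← hc] at h3
  exact lt_irrefl _ h3

/-- The main list. -/
theorem master [Fintype F] (hn : 3 ≤ n) (H : Subgroup (GL (Fin n) F)) (hH : IsMaximalIn (specialLinear (Fin n) F) H) :
    (∃ W : Submodule F (Fin n → F), W ≠ ⊥ ∧ W ≠ ⊤ ∧ H = subspaceStabilizer W ⊓ specialLinear (Fin n) F) ∨
    (∃ (t m : ℕ) (D : Fin t → Submodule F (Fin n → F)), IsMDecomposition m D ∧ t * m = n ∧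
      (m = 1 → 5 ≤ Fintype.card F) ∧ (m = 2 → 3 ≤ Fintype.card F) ∧
      H = decompositionStabilizer D ⊓ specialLinear (Fin n) F) ∨
    (∃ (r : ℕ) (K : Subalgebra F (Matrix (Fin n) (Fin n) F)), r.Prime ∧ r ∣ n ∧ IsFieldSubalgebra r K ∧
      H = subalgebraNormalizer K ⊓ specialLinear (Fin n) F) ∨
    (∃ (n₁ n₂ : ℕ) (e : Fin n ≃ Fin n₁ × Fin n₂) (P : GL (Fin n) F), 2 ≤ n₁ ∧ n₁ < n₂ ∧ n₁ * n₂ = n ∧
      (n₁ = 2 → 3 ≤ Fintype.card F) ∧ H = tensorProductSubgroup n₁ n₂ e P ⊓ specialLinear (Fin n) F) ∨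
    (∃ (F₀ : Subfield F) (r : ℕ) (P : GL (Fin n) F), r.Prime ∧ Fintype.card F = Nat.card F₀ ^ r ∧
      H = subfieldSubgroup F₀ P ⊓ specialLinear (Fin n) F) ∨
    (∃ (r : ℕ) (R : Subgroup (GL (Fin n) F)), IsLinearSymplecticTypeData r R ∧ (∃ k, n = r ^ k) ∧
      H = subgroupNormalizer R ⊓ specialLinear (Fin n) F) ∨
    (∃ (m t : ℕ) (e : Fin n ≃ (Fin t → Fin m)) (P : GL (Fin n) F), 3 ≤ m ∧ 2 ≤ t ∧ m ^ t = n ∧
      H = tensorWreathSubgroup m t e P ⊓ specialLinear (Fin n) F) ∨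
    (∃ f : (Fin n → F) → (Fin n → F) → F, IsSymplecticForm f ∧ Even n ∧
      H = similarityGroup f ⊓ specialLinear (Fin n) F) ∨
    (∃ (σ : F ≃+* F) (f : (Fin n → F) → (Fin n → F) → F), IsUnitaryForm σ f ∧
      H = similarityGroup f ⊓ specialLinear (Fin n) F) ∨
    (∃ Q : (Fin n → F) → F, IsNondegenerateQuadraticForm Q ∧ Odd (Fintype.card F) ∧
      H = quadSimilarityGroup Q ⊓ specialLinear (Fin n) F) ∨
    InLinearResidualClass H := by
  classical
  have hcard : 3 ≤ Fintype.card (Fin n) := by simpa using hn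
  have hq2 : 2 ≤ Fintype.card F := Fintype.one_lt_card
  have subC : ∀ W : Submodule F (Fin n → F), W ≠ ⊥ → W ≠ ⊤ → H ≤ subspaceStabilizer W →
      ∃ W : Submodule F (Fin n → F), W ≠ ⊥ ∧ W ≠ ⊤ ∧ H = subspaceStabilizer W ⊓ specialLinear (Fin n) F :=
    fun W h0 h1 hle => ⟨W, h0, h1, eq_inf_of_le hH hle (not_le_sub h0 h1)⟩
  rcases Cfsg.Agent.Lib.Asch.Main.aschbacher_linear hn H with ⟨M, hM, hHM⟩ | hres
  · rcases hM with ⟨W, h0, h1, rfl⟩ | ⟨W, U, h0, hWU, -, rfl⟩ | ⟨W, U, h0, h2, h3, hlt, rfl⟩ | ⟨t, m, D, hD, rfl⟩ |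
      ⟨r, K, hr, hK, rfl⟩ | ⟨n₁, n₂, e, P, h1, h2, rfl⟩ | ⟨F₀, r, P, hr, hc, rfl⟩ | ⟨r, R, hR, rfl⟩ |
      ⟨m, t, e, P, h1, h2, rfl⟩ | ⟨f, hf, h1, h2, rfl⟩ | ⟨σ, f, hf, h1, rfl⟩ | ⟨Q, hQ, h0, h1, rfl⟩
    · exact Or.inl (subC W h0 h1 hHM)
    · exact Or.inl (subC W h0 (ne_top_of_lt hWU) (hHM.trans inf_le_left))
    · refine Or.inl (subC W h0 ?_ (hHM.trans inf_le_left))
      rintro rfl
      have h4 := Submodule.finrank_le U
      rw [finrank_top] at hlt
      omega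
    · -- decompositions
      have hcd : t * m = n := by simpa using decomp_card hD
      have ht2 := hD.two_le
      by_cases h1 : m = 1 ∧ Fintype.card F ≤ 4
      · obtain ⟨rfl, hq⟩ := h1
        have h4 : Fintype.card F = 2 ∨ Fintype.card F = 3 ∨ Fintype.card F = 4 := by omega
        rcases h4 with h4 | h4 | h4
        · obtain ⟨W, h0, h1, hle⟩ := Cfsg.Agent.Lib.CmaxL.Lines.lines_q2 hD h4
          exact Or.inl (subC W h0 h1 (hHM.trans hle))
        · obtain ⟨Q, hQ, hle⟩ := Cfsg.Agent.Lib.CmaxL.Lines.lines_q3 hD h4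
          refine Or.inr (Or.inr (Or.inr (Or.inr (Or.inr (Or.inr (Or.inr (Or.inr (Or.inr (Or.inl ⟨Q, hQ, ?_, ?_⟩)))))))))
          · rw [h4]
            decide
          · exact eq_inf_of_le hH (hHM.trans hle) (not_le_quadSim hQ hcard)
        · obtain ⟨σ, f, hf, hle⟩ := Cfsg.Agent.Lib.CmaxL.Lines.lines_q4 hD h4
          exact Or.inr (Or.inr (Or.inr (Or.inr (Or.inr (Or.inr (Or.inr (Or.inr (Or.inl ⟨σ, f, hf,
            eq_inf_of_le hH (hHM.trans hle) (not_le_unit hf hcard)⟩))))))))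
      by_cases h5 : m = 2 ∧ Fintype.card F = 2
      · obtain ⟨rfl, hq⟩ := h5
        obtain ⟨f, hf, hle⟩ := Cfsg.Agent.Lib.CmaxL.Planes.planes_q2 hD hq
        exact Or.inr (Or.inr (Or.inr (Or.inr (Or.inr (Or.inr (Or.inr (Or.inl ⟨f, hf, ⟨t, by omega⟩,
          eq_inf_of_le hH (hHM.trans hle) (not_le_symp hf hcard)⟩)))))))
      exact Or.inr (Or.inl ⟨t, m, D, hD, hcd, fun h => by
        by_contra hcon
        exact h1 ⟨h, by omega⟩, fun h => by
        by_contra hcon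
        exact h5 ⟨h, by omega⟩, eq_inf_of_le hH hHM (not_le_decomp hD)⟩)
    · exact Or.inr (Or.inr (Or.inl ⟨r, K, hr, field_dvd hr.pos hK, hK,
        eq_inf_of_le hH hHM (not_le_field hr.two_le hK hcard)⟩))
    · have hcn : n₁ * n₂ = n := by
        have := Fintype.card_congr e
        simpa using this.symm
      by_cases h5 : n₁ = 2 ∧ Fintype.card F = 2
      · obtain ⟨rfl, hq⟩ := h5
        obtain ⟨K, hK, hle⟩ := Cfsg.Agent.Lib.CmaxL.TensorQ2.tensor_q2 (by omega) hq e P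
        exact Or.inr (Or.inr (Or.inl ⟨2, K, Nat.prime_two, ⟨n₂, hcn.symm⟩, hK,
          eq_inf_of_le hH (hHM.trans hle) (not_le_field le_rfl hK hcard)⟩))
      exact Or.inr (Or.inr (Or.inr (Or.inl ⟨n₁, n₂, e, P, h1, h2, hcn, fun h => by
        by_contra hcon
        exact h5 ⟨h, by omega⟩, eq_inf_of_le hH hHM (not_le_tensor h1 (by omega) e P)⟩)))
    · exact Or.inr (Or.inr (Or.inr (Or.inr (Or.inl ⟨F₀, r, P, hr, hc,
        eq_inf_of_le hH hHM (not_le_subfield (subfield_ne_top hr hc) (by omega) P)⟩))))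
    · obtain ⟨p, e, hrp, hmin, -⟩ := hR.field
      have hrF : (r : F) ≠ 0 := by
        intro h
        haveI := hmin.2.1
        have h1 := (CharP.cast_eq_zero_iff F p r).1 h
        exact hrp ((Nat.prime_dvd_prime_iff_eq hmin.1 hR.symplecticType.prime).1 h1).symm
      exact Or.inr (Or.inr (Or.inr (Or.inr (Or.inr (Or.inl ⟨r, R, hR,
        exists_card_eq_pow (by omega) hR.symplecticType.prime hrF hR.symplecticType.pGroup hR.absIrred,
        eq_inf_of_le hH hHM (not_le_normalizer hn hR.absIrred hrF hR.symplecticType.pGroup)⟩)))))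
    · have hcn : m ^ t = n := by
        have := Fintype.card_congr e
        simpa using this.symm
      exact Or.inr (Or.inr (Or.inr (Or.inr (Or.inr (Or.inr (Or.inl ⟨m, t, e, P, h1, h2, hcn,
        eq_inf_of_le hH hHM (not_le_wreath (by omega) h2 e P)⟩))))))
    · exact Or.inr (Or.inr (Or.inr (Or.inr (Or.inr (Or.inr (Or.inr (Or.inl ⟨f, hf, h1,
        eq_inf_of_le hH hHM (not_le_symp hf hcard)⟩)))))))
    · exact Or.inr (Or.inr (Or.inr (Or.inr (Or.inr (Or.inr (Or.inr (Or.inr (Or.inl ⟨σ, f, hf,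
        eq_inf_of_le hH hHM (not_le_unit hf hcard)⟩))))))))
    · exact Or.inr (Or.inr (Or.inr (Or.inr (Or.inr (Or.inr (Or.inr (Or.inr (Or.inr (Or.inl ⟨Q, hQ, h0,
        eq_inf_of_le hH hHM (not_le_quadSim hQ hcard)⟩)))))))))
  · exact Or.inr (Or.inr (Or.inr (Or.inr (Or.inr (Or.inr (Or.inr (Or.inr (Or.inr (Or.inr hres)))))))))

/-! ### Arithmetic of the symplectic type data -/

theorem dvd_sub_one_iff {r a : ℕ} (hr : 2 ≤ r) (ha : 1 ≤ a) : r ∣ a - 1 ↔ a % r = 1 := by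
  rw [← Nat.modEq_iff_dvd' ha, Nat.ModEq, Nat.mod_eq_of_lt (by omega : 1 < r)]
  exact eq_comm

theorem eq_of_dvd_pow {s r k n : ℕ} (hs : s.Prime) (hr : r.Prime) (h : n = r ^ k) (hd : s ∣ n) : s = r :=
  (Nat.prime_dvd_prime_iff_eq hs hr).1 (hs.dvd_of_dvd_pow (h ▸ hd))

/-- The data of a class-6 subgroup, for odd `r`. -/
theorem odd_data [Fintype F] {r : ℕ} {R : Subgroup (GL (Fin n) F)} (hR : IsLinearSymplecticTypeData r R) (hodd : Odd r) :
    ∃ p e : ℕ, p.Prime ∧ CharP F p ∧ Fintype.card F = p ^ e ∧ p % r ≠ 0 ∧ Odd e ∧ e < r ∧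
      (p % r) ^ e % r = 1 ∧ ∀ d, 0 < d → d < e → (p % r) ^ d % r ≠ 1 := by
  obtain ⟨p, e, hrp, ⟨hp, hc, hq, hz, hmin⟩, halt⟩ := hR.field
  have hr := hR.symplecticType.prime
  have hr2 := hr.two_le
  have hzc : Nat.card (Subgroup.center R) = r := by
    rcases halt with ⟨-, -, h, -⟩ | ⟨h, -⟩ | ⟨h, -⟩
    · exact h
    · subst h
      exact absurd hodd (by decide)
    · subst h
      exact absurd hodd (by decide)
  have he : Odd e := by
    rcases halt with ⟨-, h, -⟩ | ⟨h, -⟩ | ⟨h, -⟩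
    · exact h
    · subst h
      exact absurd hodd (by decide)
    · subst h
      exact absurd hodd (by decide)
  rw [hzc] at hz hmin
  have hp0 : p % r ≠ 0 := by
    intro h
    have h1 := Nat.dvd_of_mod_eq_zero h
    exact hrp ((Nat.prime_dvd_prime_iff_eq hr hp).1 h1)
  have hpow : ∀ d, 0 < d → (r ∣ p ^ d - 1 ↔ (p % r) ^ d % r = 1) := by
    intro d hd
    rw [dvd_sub_one_iff hr2 (Nat.one_le_pow _ _ hp.pos), Nat.pow_mod]
  have he0 : 0 < e := he.pos
  refine ⟨p, e, hp, hc, hq, hp0, he, ?_, (hpow e he0).1 hz, fun d hd hde h => hmin d hd hde ((hpow d hd).2 h)⟩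
  by_contra hcon
  have hne : r - 1 ≠ 0 := by omega
  refine hmin (r - 1) (by omega) (by omega) ?_
  have hcop : Nat.Coprime p r := ((Nat.coprime_primes hp hr).2 (Ne.symm hrp))
  haveI : Fact r.Prime := ⟨hr⟩
  have h1 : (p : ZMod r) ^ (r - 1) = 1 := ZMod.pow_card_sub_one_eq_one (by
    intro h
    exact hp0 ((ZMod.natCast_eq_zero_iff _ _).1 h |> Nat.mod_eq_zero_of_dvd))
  have h2 : ((p ^ (r - 1) : ℕ) : ZMod r) = ((1 : ℕ) : ZMod r) := by
    push_cast
    exact h1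
  have h3 := (ZMod.natCast_eq_natCast_iff _ _ _).1 h2
  exact (Nat.modEq_iff_dvd' (Nat.one_le_pow _ _ hp.pos)).1 h3.symm

/-- The data of a class-6 subgroup, for `r = 2` in dimension at least three. -/
theorem two_data [Fintype F] (hn : 3 ≤ n) {R : Subgroup (GL (Fin n) F)} (hR : IsLinearSymplecticTypeData 2 R) :
    ∃ p : ℕ, p.Prime ∧ Fintype.card F = p ∧ p % 4 = 1 := by
  obtain ⟨p, e, hrp, ⟨hp, hc, hq, hz, hmin⟩, halt⟩ := hR.field
  rcases halt with ⟨h, -⟩ | ⟨-, he, hzc, -⟩ | ⟨-, -, h, -⟩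
  · exact absurd h (by decide)
  · subst he
    rw [hzc, pow_one] at hz
    rw [pow_one] at hq
    refine ⟨p, hp, hq, ?_⟩
    have h1 := hp.pos
    omega
  · simp at h
    omega

end Cfsg.Agent.Lib.CmaxL.Master
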