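/-
Small arithmetic for the statements on `SL_n(q)`, `n ≤ 12`.
-/
import Cfsg.Agent.Lib.CmaxL.Master

set_option autoImplicit false

namespace Cfsg.Agent.Lib.CmaxL.Arith

theorem arith3 {x e : ℕ} (hx : x < 3) (hx0 : x ≠ 0) (he : e < 3) (h1 : Odd e) (h2 : x ^ e % 3 = 1)
    (h3 : ∀ d, 0 < d → d < e → x ^ d % 3 ≠ 1) : e = 1 ∧ x = 1 := by
  have h1' : e % 2 = 1 := Nat.odd_iff.mp h1
  interval_cases x <;> interval_cases e <;> simp_all

theorem arith5 {x e : ℕ} (hx : x < 5) (hx0 : x ≠ 0) (he : e < 5) (h1 : Odd e) (h2 : x ^ e % 5 = 1)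
    (h3 : ∀ d, 0 < d → d < e → x ^ d % 5 ≠ 1) : e = 1 ∧ x = 1 := by
  have h1' : e % 2 = 1 := Nat.odd_iff.mp h1
  have h31 := h3 1
  have h33 := h3 3
  clear h3 h1
  interval_cases x <;> interval_cases e <;> simp_all

theorem arith7 {x e : ℕ} (hx : x < 7) (hx0 : x ≠ 0) (he : e < 7) (h1 : Odd e) (h2 : x ^ e % 7 = 1)
    (h3 : ∀ d, 0 < d → d < e → x ^ d % 7 ≠ 1) : (e = 1 ∧ x = 1) ∨ (e = 3 ∧ (x = 2 ∨ x = 4)) := by
  have h1' : e % 2 = 1 := Nat.odd_iff.mp h1
  have h31 := h3 1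
  have h33 := h3 3
  have h35 := h3 5
  clear h3 h1
  interval_cases x <;> interval_cases e <;> simp_all

theorem arith11 {x e : ℕ} (hx : x < 11) (hx0 : x ≠ 0) (he : e < 11) (h1 : Odd e) (h2 : x ^ e % 11 = 1)
    (h3 : ∀ d, 0 < d → d < e → x ^ d % 11 ≠ 1) : (e = 1 ∧ x = 1) ∨ (e = 5 ∧ (x = 3 ∨ x = 4 ∨ x = 5 ∨ x = 9)) := by
  have h1' : e % 2 = 1 := Nat.odd_iff.mp h1
  have h31 := h3 1
  have h33 := h3 3
  have h35 := h3 5
  have h37 := h3 7
  have h39 := h3 9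
  clear h3 h1
  interval_cases x <;> interval_cases e <;> simp_all

theorem pow_lower {m t : ℕ} (h1 : 3 ≤ m) (h2 : 2 ≤ t) : 9 ≤ m ^ t := by
  calc 9 = 3 ^ 2 := by norm_num
    _ ≤ m ^ 2 := Nat.pow_le_pow_left h1 2
    _ ≤ m ^ t := Nat.pow_le_pow_right (by omega) h2

/-- `m ^ t = 9` forces `m = 3`, `t = 2`. -/
theorem pow_eq_nine {m t : ℕ} (h1 : 3 ≤ m) (h2 : 2 ≤ t) (h : m ^ t = 9) : m = 3 ∧ t = 2 := by
  have ht : t = 2 := by
    by_contra hne
    have h3 : 3 ≤ t := by omega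
    have : 27 ≤ m ^ t := by
      calc 27 = 3 ^ 3 := by norm_num
        _ ≤ m ^ 3 := Nat.pow_le_pow_left h1 3
        _ ≤ m ^ t := Nat.pow_le_pow_right (by omega) h3
    omega
  subst ht
  have hm : m = 3 := by
    by_contra hne
    have h3 : 4 ≤ m := by omega
    have : 16 ≤ m ^ 2 := by
      calc 16 = 4 ^ 2 := by norm_num
        _ ≤ m ^ 2 := Nat.pow_le_pow_left h3 2
    omega
  exact ⟨hm, rfl⟩

theorem pow_ne {m t n : ℕ} (h1 : 3 ≤ m) (h2 : 2 ≤ t) (hn : 9 < n) (hn2 : n < 16) (h : m ^ t = n) : False := by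
  have ht : t = 2 ∨ 3 ≤ t := by omega
  rcases ht with rfl | h3
  · have hm : m = 3 ∨ 4 ≤ m := by omega
    rcases hm with rfl | h4
    · omega
    · have : 16 ≤ m ^ 2 := by
        calc 16 = 4 ^ 2 := by norm_num
          _ ≤ m ^ 2 := Nat.pow_le_pow_left h4 2
      omega
  · have : 27 ≤ m ^ t := by
      calc 27 = 3 ^ 3 := by norm_num
        _ ≤ m ^ 3 := Nat.pow_le_pow_left h1 3
        _ ≤ m ^ t := Nat.pow_le_pow_right (by omega) h3
    omega

theorem tm3 {t m : ℕ} (ht : 2 ≤ t) (hm : 0 < m) (h : t * m = 3) : (t = 3 ∧ m = 1) := by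
  have hle : t ≤ 3 := by nlinarith
  interval_cases t <;> omega

theorem ten3 {a b : ℕ} (ha : 2 ≤ a) (hb : a < b) (h : a * b = 3) : False := by
  have hle : a ≤ 3 := by nlinarith
  interval_cases a <;> omega

theorem pr3 {r : ℕ} (hr : r.Prime) (h : r ∣ 3) : r = 3 := by
  have hle : r ≤ 3 := Nat.le_of_dvd (by norm_num) h
  interval_cases r <;> first | (exfalso; revert hr; norm_num; done) | (exfalso; revert h; norm_num; done) | omega

theorem tm4 {t m : ℕ} (ht : 2 ≤ t) (hm : 0 < m) (h : t * m = 4) : (t = 2 ∧ m = 2) ∨ (t = 4 ∧ m = 1) := by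
  have hle : t ≤ 4 := by nlinarith
  interval_cases t <;> omega

theorem ten4 {a b : ℕ} (ha : 2 ≤ a) (hb : a < b) (h : a * b = 4) : False := by
  have hle : a ≤ 4 := by nlinarith
  interval_cases a <;> omega

theorem pr4 {r : ℕ} (hr : r.Prime) (h : r ∣ 4) : r = 2 := by
  have hle : r ≤ 4 := Nat.le_of_dvd (by norm_num) h
  interval_cases r <;> first | (exfalso; revert hr; norm_num; done) | (exfalso; revert h; norm_num; done) | omega

theorem tm5 {t m : ℕ} (ht : 2 ≤ t) (hm : 0 < m) (h : t * m = 5) : (t = 5 ∧ m = 1) := by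
  have hle : t ≤ 5 := by nlinarith
  interval_cases t <;> omega

theorem ten5 {a b : ℕ} (ha : 2 ≤ a) (hb : a < b) (h : a * b = 5) : False := by
  have hle : a ≤ 5 := by nlinarith
  interval_cases a <;> omega

theorem pr5 {r : ℕ} (hr : r.Prime) (h : r ∣ 5) : r = 5 := by
  have hle : r ≤ 5 := Nat.le_of_dvd (by norm_num) h
  interval_cases r <;> first | (exfalso; revert hr; norm_num; done) | (exfalso; revert h; norm_num; done) | omega

theorem tm6 {t m : ℕ} (ht : 2 ≤ t) (hm : 0 < m) (h : t * m = 6) : (t = 2 ∧ m = 3) ∨ (t = 3 ∧ m = 2) ∨ (t = 6 ∧ m = 1) := by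
  have hle : t ≤ 6 := by nlinarith
  interval_cases t <;> omega

theorem ten6 {a b : ℕ} (ha : 2 ≤ a) (hb : a < b) (h : a * b = 6) : (a = 2 ∧ b = 3) := by
  have hle : a ≤ 6 := by nlinarith
  interval_cases a <;> omega

theorem pr6 {r : ℕ} (hr : r.Prime) (h : r ∣ 6) : r = 2 ∨ r = 3 := by
  have hle : r ≤ 6 := Nat.le_of_dvd (by norm_num) h
  interval_cases r <;> first | (exfalso; revert hr; norm_num; done) | (exfalso; revert h; norm_num; done) | omega

theorem tm7 {t m : ℕ} (ht : 2 ≤ t) (hm : 0 < m) (h : t * m = 7) : (t = 7 ∧ m = 1) := by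
  have hle : t ≤ 7 := by nlinarith
  interval_cases t <;> omega

theorem ten7 {a b : ℕ} (ha : 2 ≤ a) (hb : a < b) (h : a * b = 7) : False := by
  have hle : a ≤ 7 := by nlinarith
  interval_cases a <;> omega

theorem pr7 {r : ℕ} (hr : r.Prime) (h : r ∣ 7) : r = 7 := by
  have hle : r ≤ 7 := Nat.le_of_dvd (by norm_num) h
  interval_cases r <;> first | (exfalso; revert hr; norm_num; done) | (exfalso; revert h; norm_num; done) | omega

theorem tm8 {t m : ℕ} (ht : 2 ≤ t) (hm : 0 < m) (h : t * m = 8) : (t = 2 ∧ m = 4) ∨ (t = 4 ∧ m = 2) ∨ (t = 8 ∧ m = 1) := by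
  have hle : t ≤ 8 := by nlinarith
  interval_cases t <;> omega

theorem ten8 {a b : ℕ} (ha : 2 ≤ a) (hb : a < b) (h : a * b = 8) : (a = 2 ∧ b = 4) := by
  have hle : a ≤ 8 := by nlinarith
  interval_cases a <;> omega

theorem pr8 {r : ℕ} (hr : r.Prime) (h : r ∣ 8) : r = 2 := by
  have hle : r ≤ 8 := Nat.le_of_dvd (by norm_num) h
  interval_cases r <;> first | (exfalso; revert hr; norm_num; done) | (exfalso; revert h; norm_num; done) | omega

theorem tm9 {t m : ℕ} (ht : 2 ≤ t) (hm : 0 < m) (h : t * m = 9) : (t = 3 ∧ m = 3) ∨ (t = 9 ∧ m = 1) := by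
  have hle : t ≤ 9 := by nlinarith
  interval_cases t <;> omega

theorem ten9 {a b : ℕ} (ha : 2 ≤ a) (hb : a < b) (h : a * b = 9) : False := by
  have hle : a ≤ 9 := by nlinarith
  interval_cases a <;> omega

theorem pr9 {r : ℕ} (hr : r.Prime) (h : r ∣ 9) : r = 3 := by
  have hle : r ≤ 9 := Nat.le_of_dvd (by norm_num) h
  interval_cases r <;> first | (exfalso; revert hr; norm_num; done) | (exfalso; revert h; norm_num; done) | omega

theorem tm10 {t m : ℕ} (ht : 2 ≤ t) (hm : 0 < m) (h : t * m = 10) : (t = 2 ∧ m = 5) ∨ (t = 5 ∧ m = 2) ∨ (t = 10 ∧ m = 1) := by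
  have hle : t ≤ 10 := by nlinarith
  interval_cases t <;> omega

theorem ten10 {a b : ℕ} (ha : 2 ≤ a) (hb : a < b) (h : a * b = 10) : (a = 2 ∧ b = 5) := by
  have hle : a ≤ 10 := by nlinarith
  interval_cases a <;> omega

theorem pr10 {r : ℕ} (hr : r.Prime) (h : r ∣ 10) : r = 2 ∨ r = 5 := by
  have hle : r ≤ 10 := Nat.le_of_dvd (by norm_num) h
  interval_cases r <;> first | (exfalso; revert hr; norm_num; done) | (exfalso; revert h; norm_num; done) | omega

theorem tm11 {t m : ℕ} (ht : 2 ≤ t) (hm : 0 < m) (h : t * m = 11) : (t = 11 ∧ m = 1) := by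
  have hle : t ≤ 11 := by nlinarith
  interval_cases t <;> omega

theorem ten11 {a b : ℕ} (ha : 2 ≤ a) (hb : a < b) (h : a * b = 11) : False := by
  have hle : a ≤ 11 := by nlinarith
  interval_cases a <;> omega

theorem pr11 {r : ℕ} (hr : r.Prime) (h : r ∣ 11) : r = 11 := by
  have hle : r ≤ 11 := Nat.le_of_dvd (by norm_num) h
  interval_cases r <;> first | (exfalso; revert hr; norm_num; done) | (exfalso; revert h; norm_num; done) | omega

theorem tm12 {t m : ℕ} (ht : 2 ≤ t) (hm : 0 < m) (h : t * m = 12) : (t = 2 ∧ m = 6) ∨ (t = 3 ∧ m = 4) ∨ (t = 4 ∧ m = 3) ∨ (t = 6 ∧ m = 2) ∨ (t = 12 ∧ m = 1) := by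
  have hle : t ≤ 12 := by nlinarith
  interval_cases t <;> omega

theorem ten12 {a b : ℕ} (ha : 2 ≤ a) (hb : a < b) (h : a * b = 12) : (a = 2 ∧ b = 6) ∨ (a = 3 ∧ b = 4) := by
  have hle : a ≤ 12 := by nlinarith
  interval_cases a <;> omega

theorem pr12 {r : ℕ} (hr : r.Prime) (h : r ∣ 12) : r = 2 ∨ r = 3 := by
  have hle : r ≤ 12 := Nat.le_of_dvd (by norm_num) h
  interval_cases r <;> first | (exfalso; revert hr; norm_num; done) | (exfalso; revert h; norm_num; done) | omega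

end Cfsg.Agent.Lib.CmaxL.Arith
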