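/-
`SL₃(4)`: the normaliser of a cubic field lies in a subfield subgroup.
-/
import Cfsg.Agent.Lib.CmaxL.Master

set_option autoImplicit false

namespace Cfsg.Agent.Lib.CmaxL.CubicQ4

open Matrix Module Cfsg Cfsg.Geo Polynomial Cfsg.Agent.Lib.Geo.Basic Cfsg.Agent.Lib.Elusive.FieldSub
open scoped MatrixGroups

universe u

theorem mem_of_roots {L : Type*} [Field L] {Z : Finset L} {n : ℕ} (hn : 1 < n) (hZ : ∀ z ∈ Z, z ^ n = z)
    (hcard : Z.card = n) {x : L} (hx : x ^ n = x) : x ∈ Z := by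
  classical
  by_contra hxZ
  have hp : (X ^ n - X : L[X]) ≠ 0 := FiniteField.X_pow_card_sub_X_ne_zero L hn
  have hsub : (insert x Z).val ⊆ (X ^ n - X : L[X]).roots := by
    intro y hy
    rw [Polynomial.mem_roots hp]
    have hy' : y ∈ insert x Z := hy
    rw [Finset.mem_insert] at hy'
    simp only [IsRoot, eval_sub, eval_pow, eval_X]
    rcases hy' with rfl | hy'
    · rw [hx, sub_self]
    · rw [hZ y hy', sub_self]
  have := Polynomial.card_le_degree_of_subset_roots hsub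
  rw [Finset.card_insert_of_notMem hxZ, hcard, FiniteField.X_pow_card_sub_X_natDegree_eq L hn] at this
  omega

section F2

variable (F : Type u) [Field F] [CharP F 2]

/-- The prime field in characteristic two. -/
def F2 : Subfield F where
  carrier := {x | x = 0 ∨ x = 1}
  mul_mem' := by rintro a b (rfl | rfl) (rfl | rfl) <;> simp
  one_mem' := Or.inr rfl
  add_mem' := by
    rintro a b (rfl | rfl) (rfl | rfl) <;> simp [CharTwo.add_self_eq_zero]
  zero_mem' := Or.inl rfl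
  neg_mem' := by
    rintro a (rfl | rfl) <;> simp [CharTwo.neg_eq]
  inv_mem' := by rintro a (rfl | rfl) <;> simp

variable {F}

theorem mem_F2 {x : F} : x ∈ F2 F ↔ x = 0 ∨ x = 1 := Iff.rfl

theorem card_F2 : Nat.card (F2 F) = 2 := by
  rw [Nat.card_eq_two_iff]
  refine ⟨⟨0, (F2 F).zero_mem⟩, ⟨1, (F2 F).one_mem⟩, ?_, ?_⟩
  · intro h
    exact zero_ne_one (congrArg Subtype.val h)
  · ext ⟨x, hx⟩
    simp only [Set.mem_insert_iff, Set.mem_singleton_iff, Set.mem_univ, iff_true, Subtype.mk.injEq]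
    exact hx

theorem F2_pow8 {c : F} (hc : c ∈ F2 F) : c ^ 8 = c := by
  rcases hc with rfl | rfl <;> simp

end F2

theorem charP_two_of_card {F : Type u} [Field F] [Fintype F] (hq : Fintype.card F = 4) : CharP F 2 := by
  obtain ⟨p, hp⟩ := CharP.exists F
  obtain ⟨n, hpp, hc⟩ := FiniteField.card F p
  have h1 : p ∣ 2 ^ 2 := by
    have : p ∣ p ^ (n : ℕ) := dvd_pow_self _ n.ne_zero
    rw [← hc, hq] at this
    exact this
  have h2 : p = 2 := (Nat.prime_dvd_prime_iff_eq hpp Nat.prime_two).1 (hpp.dvd_of_dvd_pow h1)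
  rw [h2] at hp
  exact hp

section Alg

variable {F : Type u} [Field F] [Fintype F] [CharP F 2] {L : Type u} [Field L] [Algebra F L]

theorem pow8_add [CharP L 2] (x y : L) : (x + y) ^ 8 = x ^ 8 + y ^ 8 := by
  have := add_pow_char_pow x y 2 3
  norm_num at this
  exact this

/-- The `F₂`-combinations of `1, θ, θ²`. -/
noncomputable def phi (θ : L) (c : Fin 3 → F2 F) : L := ∑ j, (c j : F) • θ ^ (j : ℕ)

theorem phi_pow {θ : L} (hθ : θ ^ 8 = θ) (c : Fin 3 → F2 F) : (phi θ c) ^ 8 = phi θ c := by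
  haveI : CharP L 2 := charP_of_injective_algebraMap (algebraMap F L).injective 2
  refine Finset.sum_induction _ (fun x : L => x ^ 8 = x) (fun a b ha hb => by rw [pow8_add, ha, hb]) (by simp) ?_
  intro j _
  rw [_root_.smul_pow, F2_pow8 (c j).2, ← pow_mul, mul_comm, pow_mul, hθ]

theorem mem_phi {θ : L} (hli : LinearIndependent F (fun j : Fin 3 => θ ^ (j : ℕ))) (hθ : θ ^ 8 = θ) {x : L}
    (hx : x ^ 8 = x) : ∃ c : Fin 3 → F2 F, phi θ c = x := by
  classical
  letI : Fintype (F2 F) := Fintype.ofFinite _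
  have hinj : Function.Injective (phi (F := F) θ) := by
    intro c c' h
    have h0 : ∑ j, ((c j : F) - c' j) • θ ^ (j : ℕ) = 0 := by
      simp only [sub_smul, Finset.sum_sub_distrib]
      exact sub_eq_zero.2 h
    have h1 := Fintype.linearIndependent_iff.1 hli _ h0
    funext j
    exact Subtype.ext (sub_eq_zero.1 (h1 j))
  have hcard : (Finset.univ.image (phi (F := F) θ)).card = 8 := by
    rw [Finset.card_image_of_injective _ hinj, Finset.card_univ, Fintype.card_fun, Fintype.card_fin]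
    have : Fintype.card (F2 F) = 2 := by rw [← Nat.card_eq_fintype_card, card_F2]
    rw [this]
    norm_num
  have hmem := mem_of_roots (by norm_num) (fun z hz => by
    obtain ⟨c, -, rfl⟩ := Finset.mem_image.1 hz
    exact phi_pow hθ c) hcard hx
  obtain ⟨c, -, hc⟩ := Finset.mem_image.1 hmem
  exact ⟨c, hc⟩

theorem indep_of_seven (hq : Fintype.card F = 4) (hdim : finrank F L = 3) {θ : L} (h7 : θ ^ 7 = 1) (h1 : θ ≠ 1) :
    LinearIndependent F (fun j : Fin 3 => θ ^ (j : ℕ)) := by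
  haveI : FiniteDimensional F L := .of_finrank_pos (by omega)
  have hint : IsIntegral F θ := Algebra.IsIntegral.isIntegral θ
  have hd := minpoly.degree_dvd hint
  rw [hdim] at hd
  rcases (Nat.dvd_prime Nat.prime_three).1 hd with h | h
  · obtain ⟨c, hc⟩ := minpoly.natDegree_eq_one_iff.1 h
    exfalso
    apply h1
    have hc4 : c ^ 4 = c := by
      have := FiniteField.pow_card c
      rwa [hq] at this
    have h4 : θ ^ 4 = θ := by
      have hc' : algebraMap F L c = θ := hc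
      rw [← hc', ← map_pow, hc4]
    have hθ0 : θ ≠ 0 := by
      rintro rfl
      simp at h7
    have h3 : θ ^ 3 = 1 := mul_left_cancel₀ hθ0 (by rw [← pow_succ', h4, mul_one])
    calc θ = (θ ^ 3) ^ 2 * θ := by rw [h3]; simp
      _ = θ ^ 7 := by ring
      _ = 1 := h7
  · have := linearIndependent_pow (K := F) θ
    rw [h] at this
    exact this

theorem scalar_of_pow4 (hq : Fintype.card F = 4) {x : L} (hx : x ^ 4 = x) : ∃ c : F, algebraMap F L c = x := by
  classical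
  have hcard : (Finset.univ.image (algebraMap F L)).card = 4 := by
    rw [Finset.card_image_of_injective _ (algebraMap F L).injective, Finset.card_univ, hq]
  have hmem := mem_of_roots (by norm_num) (fun z hz => by
    obtain ⟨c, -, rfl⟩ := Finset.mem_image.1 hz
    have hc4 : c ^ 4 = c := by
      have := FiniteField.pow_card c
      rwa [hq] at this
    rw [← map_pow, hc4]) hcard hx
  obtain ⟨c, -, hc⟩ := Finset.mem_image.1 hmem
  exact ⟨c, hc⟩

theorem card_L (hq : Fintype.card F = 4) (hdim : finrank F L = 3) : Nat.card L = 64 := by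
  haveI : FiniteDimensional F L := .of_finrank_pos (by omega)
  rw [Module.natCard_eq_pow_finrank (K := F), hdim, Nat.card_eq_fintype_card, hq]
  norm_num

theorem exists_theta (hq : Fintype.card F = 4) (hdim : finrank F L = 3) : ∃ θ : L, θ ^ 7 = 1 ∧ θ ≠ 1 := by
  haveI : FiniteDimensional F L := .of_finrank_pos (by omega)
  haveI : Finite L := Module.finite_of_finite F
  haveI : Fact (Nat.Prime 7) := ⟨by norm_num⟩
  have hc : Nat.card Lˣ = 63 := by
    rw [Nat.card_units, card_L hq hdim]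
  obtain ⟨x, hx⟩ := exists_prime_orderOf_dvd_card' (G := Lˣ) 7 (by rw [hc]; norm_num)
  refine ⟨(x : L), ?_, ?_⟩
  · have : x ^ 7 = 1 := by rw [← hx]; exact pow_orderOf_eq_one x
    have h2 := congrArg Units.val this
    simpa using h2
  · intro h
    have h1 : x = 1 := Units.ext h
    rw [h1, orderOf_one] at hx
    omega

end Alg

section Ent

variable {ι : Type} [Fintype ι] [DecidableEq ι] {F : Type u} [Field F]

theorem det_mem_of_entries (F₀ : Subfield F) {A : Matrix ι ι F} (hA : ∀ i j, A i j ∈ F₀) : A.det ∈ F₀ := by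
  let A₁ : Matrix ι ι F₀ := Matrix.of fun i j => ⟨A i j, hA i j⟩
  have h1 : A = (F₀.subtype : F₀ →+* F).mapMatrix A₁ := by
    ext i j
    rfl
  rw [h1, ← RingHom.map_det]
  exact (Matrix.det A₁).2

theorem exists_gl_of_entries (F₀ : Subfield F) {A : Matrix ι ι F} (hA : ∀ i j, A i j ∈ F₀) (hdet : A.det ≠ 0) :
    ∃ A₀ : GL ι F₀, ((Matrix.GeneralLinearGroup.map (F₀.subtype : F₀ →+* F) A₀ : GL ι F) : Matrix ι ι F) = A := by
  let A₁ : Matrix ι ι F₀ := Matrix.of fun i j => ⟨A i j, hA i j⟩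
  have h1 : A = (F₀.subtype : F₀ →+* F).mapMatrix A₁ := by
    ext i j
    rfl
  have h2 : A₁.det ≠ 0 := by
    intro h
    apply hdet
    rw [h1, ← RingHom.map_det, h, map_zero]
  exact ⟨Matrix.GeneralLinearGroup.mkOfDetNeZero A₁ h2, h1.symm⟩

end Ent

section Mat

variable {F : Type u} [Field F] {L : Type u} [Field L] [Algebra F L]
  (ρ : L →ₐ[F] Matrix (Fin 3) (Fin 3) F) (θ : L) (v : Fin 3 → F)

/-- The matrix with columns `θ^j v`. -/
def PM : Matrix (Fin 3) (Fin 3) F := Matrix.of fun i j => (ρ (θ ^ (j : ℕ)) *ᵥ v) i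

theorem PM_mulVec (c : Fin 3 → F) : PM ρ θ v *ᵥ c = ρ (∑ j, c j • θ ^ (j : ℕ)) *ᵥ v := by
  rw [map_sum, Matrix.sum_mulVec]
  funext i
  have h1 : (PM ρ θ v *ᵥ c) i = ∑ j : Fin 3, (ρ (θ ^ (j : ℕ)) *ᵥ v) i * c j := rfl
  rw [h1, Finset.sum_apply]
  refine Finset.sum_congr rfl fun j _ => ?_
  rw [map_smul, Matrix.smul_mulVec, Pi.smul_apply, smul_eq_mul, mul_comm]

theorem PM_isUnit (hdim : finrank F L = 3) (hli : LinearIndependent F (fun j : Fin 3 => θ ^ (j : ℕ))) (hv : v ≠ 0) :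
    IsUnit (PM ρ θ v) := by
  haveI : FiniteDimensional F L := .of_finrank_pos (by omega)
  rw [← Matrix.mulVec_injective_iff_isUnit]
  have hinj := (modelEv_bijective ρ (by simpa using hdim) hv).1
  intro c c' h
  rw [PM_mulVec, PM_mulVec] at h
  have h1 : (∑ j, c j • θ ^ (j : ℕ)) = ∑ j, c' j • θ ^ (j : ℕ) := hinj h
  have h0 : ∑ j, (c j - c' j) • θ ^ (j : ℕ) = 0 := by
    simp only [sub_smul, Finset.sum_sub_distrib]
    exact sub_eq_zero.2 h1
  have h2 := Fintype.linearIndependent_iff.1 hli _ h0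
  funext j
  exact sub_eq_zero.1 (h2 j)

theorem exists_F2_matrix [Fintype F] [CharP F 2] (hli : LinearIndependent F (fun j : Fin 3 => θ ^ (j : ℕ)))
    (hθ : θ ^ 8 = θ) (y : Matrix (Fin 3) (Fin 3) F)
    (hy : ∀ j : Fin 3, ∃ x : L, x ^ 8 = x ∧ y *ᵥ (ρ (θ ^ (j : ℕ)) *ᵥ v) = ρ x *ᵥ v) :
    ∃ A : Matrix (Fin 3) (Fin 3) F, (∀ i j, A i j ∈ F2 F) ∧ y * PM ρ θ v = PM ρ θ v * A := by
  choose x hx hyx using hy
  choose c hc using fun j => mem_phi (F := F) hli hθ (hx j)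
  refine ⟨Matrix.of fun i j => (c j i : F), fun i j => (c j i).2, ?_⟩
  apply Matrix.ext_of_mulVec_single
  intro j
  rw [← Matrix.mulVec_mulVec, ← Matrix.mulVec_mulVec]
  have e1 : PM ρ θ v *ᵥ Pi.single j 1 = ρ (θ ^ (j : ℕ)) *ᵥ v := by
    funext i
    simp [PM]
  have e2 : (Matrix.of fun i j => (c j i : F)) *ᵥ Pi.single j 1 = fun i => (c j i : F) := by
    funext i
    simp
  rw [e1, e2, PM_mulVec, hyx, ← hc j]
  rfl

end Mat

section Main

variable {F : Type u} [Field F] [Fintype F] {L : Type u} [Field L] [Algebra F L]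

theorem normalizer_le_aux (hq : Fintype.card F = 4) (hdim : finrank F L = 3)
    (ρ : L →ₐ[F] Matrix (Fin 3) (Fin 3) F) (hρ : Function.Injective ρ)
    {K : Subalgebra F (Matrix (Fin 3) (Fin 3) F)} (hKρ : ∀ m, m ∈ K ↔ ∃ k, ρ k = m) (hc2 : CharP F 2) :
    ∃ P : GL (Fin 3) F, subalgebraNormalizer K ⊓ specialLinear (Fin 3) F ≤ subfieldSubgroup (F2 F) P := by
  classical
  haveI : FiniteDimensional F L := .of_finrank_pos (by omega)
  haveI : Finite L := Module.finite_of_finite F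
  obtain ⟨θ, h7, h1⟩ := exists_theta (F := F) hq hdim
  have hθ8 : θ ^ 8 = θ := by rw [pow_succ, h7, one_mul]
  have hli := indep_of_seven (F := F) hq hdim h7 h1
  let v : Fin 3 → F := Pi.single 0 1
  have hv : v ≠ 0 := by
    intro h
    have := congrFun h 0
    simp [v] at this
  have hdim' : finrank F L = Fintype.card (Fin 3) := by simpa using hdim
  have hPU := PM_isUnit ρ θ v hdim hli hv
  have hdetP : (PM ρ θ v).det ≠ 0 := ((Matrix.isUnit_iff_isUnit_det _).1 hPU).ne_zero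
  refine ⟨hPU.unit, ?_⟩
  rintro g ⟨hgN, hgS⟩
  have hgdet : (g : Matrix (Fin 3) (Fin 3) F).det = 1 := (mem_specialLinear_iff g).1 hgS
  have hgN' : ∀ m : Matrix (Fin 3) (Fin 3) F,
      m ∈ K ↔ (g : Matrix (Fin 3) (Fin 3) F) * m * ((g⁻¹ : GL (Fin 3) F) : Matrix (Fin 3) (Fin 3) F) ∈ K := hgN
  have hconj : ∀ x : L, ∃ x' : L, (g : Matrix (Fin 3) (Fin 3) F) * ρ x = ρ x' * g ∧ (x ^ 8 = x → x' ^ 8 = x') := by
    intro x
    have h1 := (hgN' (ρ x)).1 ((hKρ _).2 ⟨x, rfl⟩)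
    obtain ⟨x', hx'⟩ := (hKρ _).1 h1
    have h2 : (g : Matrix (Fin 3) (Fin 3) F) * ρ x = ρ x' * g := by
      rw [hx', mul_assoc, Units.inv_mul, mul_one]
    refine ⟨x', h2, fun hx8 => ?_⟩
    have h3 : ∀ n : ℕ, (g : Matrix (Fin 3) (Fin 3) F) * ρ (x ^ n) = ρ (x' ^ n) * g := by
      intro n
      induction n with
      | zero => simp
      | succ n ih => rw [pow_succ, pow_succ, map_mul, map_mul, ← mul_assoc, ih, mul_assoc, h2, mul_assoc]
    have h4 := h3 8
    rw [hx8, h2, Units.mul_left_inj] at h4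
    exact (hρ h4).symm
  obtain ⟨k, hk⟩ := (modelEv_bijective ρ hdim' hv).2 ((g : Matrix (Fin 3) (Fin 3) F) *ᵥ v)
  have hk' : ρ k *ᵥ v = (g : Matrix (Fin 3) (Fin 3) F) *ᵥ v := hk
  have hk0 : k ≠ 0 := by
    rintro rfl
    rw [map_zero, Matrix.zero_mulVec] at hk'
    apply hv
    have h2 : ((g⁻¹ : GL (Fin 3) F) : Matrix (Fin 3) (Fin 3) F) *ᵥ ((g : Matrix (Fin 3) (Fin 3) F) *ᵥ v) = v := by
      rw [Matrix.mulVec_mulVec, Units.inv_mul, Matrix.one_mulVec]
    rw [← h2, ← hk', Matrix.mulVec_zero]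
  have hG' : ∀ j : Fin 3, ∃ x : L, x ^ 8 = x ∧
      (ρ k⁻¹ * (g : Matrix (Fin 3) (Fin 3) F)) *ᵥ (ρ (θ ^ (j : ℕ)) *ᵥ v) = ρ x *ᵥ v := by
    intro j
    obtain ⟨x', h2, h8⟩ := hconj (θ ^ (j : ℕ))
    refine ⟨x', h8 (by rw [← pow_mul, mul_comm, pow_mul, hθ8]), ?_⟩
    calc (ρ k⁻¹ * (g : Matrix (Fin 3) (Fin 3) F)) *ᵥ (ρ (θ ^ (j : ℕ)) *ᵥ v)
        = (ρ k⁻¹ * ((g : Matrix (Fin 3) (Fin 3) F) * ρ (θ ^ (j : ℕ)))) *ᵥ v := by
          rw [Matrix.mulVec_mulVec, mul_assoc]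
      _ = (ρ k⁻¹ * (ρ x' * (g : Matrix (Fin 3) (Fin 3) F))) *ᵥ v := by rw [h2]
      _ = (ρ k⁻¹ * ρ x') *ᵥ ((g : Matrix (Fin 3) (Fin 3) F) *ᵥ v) := by
          rw [Matrix.mulVec_mulVec, mul_assoc]
      _ = (ρ k⁻¹ * ρ x') *ᵥ (ρ k *ᵥ v) := by rw [hk']
      _ = ρ (k⁻¹ * x' * k) *ᵥ v := by rw [Matrix.mulVec_mulVec, map_mul, map_mul]
      _ = ρ x' *ᵥ v := by
          congr 2
          field_simp
  obtain ⟨A, hA, hAe⟩ := exists_F2_matrix ρ θ v hli hθ8 _ hG'
  have hdk : (ρ k⁻¹).det * (ρ k).det = 1 := by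
    rw [← Matrix.det_mul, ← map_mul, inv_mul_cancel₀ hk0, map_one, Matrix.det_one]
  have hdA : (ρ k⁻¹).det = A.det := by
    have h2 := congrArg Matrix.det hAe
    rw [Matrix.det_mul, Matrix.det_mul, Matrix.det_mul, hgdet, mul_one, mul_comm] at h2
    exact mul_left_cancel₀ hdetP h2
  have hA1 : A.det = 1 := by
    rcases det_mem_of_entries (F2 F) hA with h | h
    · exfalso
      rw [hdA, h, zero_mul] at hdk
      exact zero_ne_one hdk
    · exact h
  have hdetk : (ρ k).det = 1 := by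
    rw [hdA, hA1, one_mul] at hdk
    exact hdk
  have h21 : k ^ 21 = 1 := by
    have h2 := FiniteField.algebraMap_norm_eq_pow (K := F) (K' := L) (x := k)
    rw [card_L hq hdim, Nat.card_eq_fintype_card, hq, ← det_model ρ hdim' k ⟨0⟩, hdetk, map_one] at h2
    norm_num at h2
    exact h2.symm
  obtain ⟨c, hc⟩ := scalar_of_pow4 (F := F) hq (x := k ^ 7) (by
    calc (k ^ 7) ^ 4 = k ^ 21 * k ^ 7 := by ring
      _ = k ^ 7 := by rw [h21, one_mul])
  have hk08 : (k ^ 15) ^ 8 = k ^ 15 := by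
    calc (k ^ 15) ^ 8 = (k ^ 21) ^ 5 * k ^ 15 := by ring
      _ = k ^ 15 := by rw [h21, one_pow, one_mul]
  have hkdec : k = c • k ^ 15 := by
    rw [Algebra.smul_def, hc]
    calc k = k ^ 21 * k := by rw [h21, one_mul]
      _ = k ^ 7 * k ^ 15 := by ring
  have hB : ∀ j : Fin 3, ∃ x : L, x ^ 8 = x ∧ ρ (k ^ 15) *ᵥ (ρ (θ ^ (j : ℕ)) *ᵥ v) = ρ x *ᵥ v := by
    intro j
    refine ⟨k ^ 15 * θ ^ (j : ℕ), ?_, by rw [Matrix.mulVec_mulVec, map_mul]⟩
    rw [mul_pow, hk08, ← pow_mul, mul_comm (j : ℕ), pow_mul, hθ8]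
  obtain ⟨B, hB1, hBe⟩ := exists_F2_matrix ρ θ v hli hθ8 _ hB
  have hc0 : c ≠ 0 := by
    rintro rfl
    rw [map_zero] at hc
    exact hk0 (pow_eq_zero_iff (by norm_num) |>.1 hc.symm)
  have hg1 : (g : Matrix (Fin 3) (Fin 3) F) = c • (ρ (k ^ 15) * (ρ k⁻¹ * (g : Matrix (Fin 3) (Fin 3) F))) := by
    rw [← Matrix.smul_mul, ← map_smul, ← hkdec, ← mul_assoc, ← map_mul, mul_inv_cancel₀ hk0, map_one, one_mul]
  have hgP : (g : Matrix (Fin 3) (Fin 3) F) * PM ρ θ v = PM ρ θ v * (c • (B * A)) := by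
    conv_lhs => rw [hg1]
    rw [Matrix.smul_mul, mul_assoc, hAe, ← mul_assoc, hBe, Matrix.mul_smul, mul_assoc]
  have hdetBA : (B * A).det ≠ 0 := by
    intro h
    have h2 := congrArg Matrix.det hgP
    rw [Matrix.det_mul, hgdet, one_mul, Matrix.det_mul, Matrix.det_smul, h, mul_zero, mul_zero] at h2
    exact hdetP h2
  have hent : ∀ i j, (B * A) i j ∈ F2 F := by
    intro i j
    rw [Matrix.mul_apply]
    exact sum_mem fun l _ => mul_mem (hB1 i l) (hA l j)
  obtain ⟨A₀, hA₀⟩ := exists_gl_of_entries (F2 F) hent hdetBA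
  rw [mem_subfieldSubgroup_iff]
  refine ⟨Units.mk0 c hc0, A₀, ?_⟩
  have hfin : g * hPU.unit = hPU.unit * (Matrix.GeneralLinearGroup.map ((F2 F).subtype : F2 F →+* F) A₀ *
      Matrix.GeneralLinearGroup.scalar (Fin 3) (Units.mk0 c hc0)) := by
    apply Units.ext
    rw [Units.val_mul, Units.val_mul, Units.val_mul, hA₀, IsUnit.unit_spec, hgP]
    congr 1
    ext i j
    simp [Matrix.GeneralLinearGroup.scalar, Matrix.scalar_apply, Matrix.mul_diagonal, mul_comm]
  rw [mul_assoc, hfin, inv_mul_cancel_left]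

/-- The main statement. -/
theorem normalizer_le (hq : Fintype.card F = 4) {K : Subalgebra F (Matrix (Fin 3) (Fin 3) F)}
    (hK : IsFieldSubalgebra 3 K) :
    ∃ (F₀ : Subfield F) (P : GL (Fin 3) F), Nat.card F₀ = 2 ∧
      subalgebraNormalizer K ⊓ specialLinear (Fin 3) F ≤ subfieldSubgroup F₀ P := by
  have hc2 := charP_two_of_card hq
  obtain ⟨L, _, _, ρ, hρ, hKρ, hdim⟩ := exists_field_model hK (by norm_num)
  obtain ⟨P, hP⟩ := normalizer_le_aux hq hdim ρ hρ hKρ hc2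
  exact ⟨F2 F, P, card_F2, hP⟩

end Main

end Cfsg.Agent.Lib.CmaxL.CubicQ4
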