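/-
The central product `4 ∘ 2^{1+4}` by parameters: the underlying set is `Fin 4 × Fin 4 × Fin 4`.
-/
import Mathlib

set_option autoImplicit false

namespace Cfsg.Agent.Lib.CmaxL.PauliT

/-- Parameters `(k, a, c)`: the element `i^k X_a Z_c`. -/
abbrev T := Fin 4 × Fin 4 × Fin 4

/-- Addition in `(ℤ/2)²`. -/
def xr (a b : Fin 4) : Fin 4 := ⟨(a.val ^^^ b.val) % 4, Nat.mod_lt _ (by norm_num)⟩

/-- The dot product on `(ℤ/2)²`. -/
def dot (c b : Fin 4) : ℕ := ((c.val / 2) * (b.val / 2) + (c.val % 2) * (b.val % 2)) % 2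

/-- The product. -/
def mulT (x y : T) : T :=
  (x.1 + y.1 + (if dot x.2.2 y.2.1 = 0 then 0 else 2), xr x.2.1 y.2.1, xr x.2.2 y.2.2)

/-- The unit. -/
def oneT : T := (0, 0, 0)

/-- A table. -/
def sT (a c : ℕ) : Fin 4 := if c = 0 then 0 else if a = 0 then 1 else 3

/-- The first automorphism. -/
def phi1 (x : T) : T :=
  (x.1 + sT (x.2.1.val % 2) (x.2.2.val % 2),
   ⟨(2 * (x.2.1.val / 2) + x.2.2.val % 2) % 4, Nat.mod_lt _ (by norm_num)⟩,
   ⟨(2 * (x.2.2.val / 2) + (x.2.1.val % 2 + x.2.2.val % 2) % 2) % 4, Nat.mod_lt _ (by norm_num)⟩)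

/-- The second automorphism. -/
def phi2 (x : T) : T :=
  (x.1 + sT (x.2.1.val / 2) (x.2.2.val / 2),
   ⟨(2 * (x.2.2.val / 2) + x.2.1.val % 2) % 4, Nat.mod_lt _ (by norm_num)⟩,
   ⟨(2 * ((x.2.1.val / 2 + x.2.2.val / 2) % 2) + x.2.2.val % 2) % 4, Nat.mod_lt _ (by norm_num)⟩)

theorem phi1_mul : ∀ k a c k' a' c' : Fin 4,
    phi1 (mulT (k, a, c) (k', a', c')) = mulT (phi1 (k, a, c)) (phi1 (k', a', c')) := by
  decide +kernel

theorem phi2_mul : ∀ k a c k' a' c' : Fin 4,
    phi2 (mulT (k, a, c) (k', a', c')) = mulT (phi2 (k, a, c)) (phi2 (k', a', c')) := by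
  decide +kernel

theorem phi1_inj' : ∀ k a c k' a' c' : Fin 4, phi1 (k, a, c) = phi1 (k', a', c') → (k, a, c) = (k', a', c') := by
  decide +kernel

theorem phi2_inj' : ∀ k a c k' a' c' : Fin 4, phi2 (k, a, c) = phi2 (k', a', c') → (k, a, c) = (k', a', c') := by
  decide +kernel

theorem noncomm' : ∀ k a c : Fin 4, (a ≠ 0 ∨ c ≠ 0) →
    mulT (k, a, c) (phi1 (k, a, c)) ≠ mulT (phi1 (k, a, c)) (k, a, c) ∨
    mulT (k, a, c) (phi2 (k, a, c)) ≠ mulT (phi2 (k, a, c)) (k, a, c) := by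
  decide +kernel

theorem pow4' : ∀ k a c : Fin 4, mulT (mulT (k, a, c) (k, a, c)) (mulT (k, a, c) (k, a, c)) = oneT := by
  decide +kernel

theorem inv_right' : ∀ k a c : Fin 4, mulT (k, a, c) (mulT (k, a, c) (mulT (k, a, c) (k, a, c))) = oneT := by
  decide +kernel

theorem center' : ∀ k a c : Fin 4, (a ≠ 0 ∨ c ≠ 0) → ∃ k' a' c' : Fin 4,
    mulT (k, a, c) (k', a', c') ≠ mulT (k', a', c') (k, a, c) := by
  decide +kernel

theorem central_comm : ∀ k k' a' c' : Fin 4,
    mulT (k, 0, 0) (k', a', c') = mulT (k', a', c') (k, 0, 0) := by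
  decide +kernel

theorem central_add : ∀ k k' : Fin 4, mulT (k, 0, 0) (k', 0, 0) = (k + k', 0, 0) := by
  decide +kernel

theorem one_mulT : ∀ k a c : Fin 4, mulT oneT (k, a, c) = (k, a, c) := by
  decide +kernel

section Rep

variable {G : Type*} [Group G]

/-- An injective representation of the parameter set. -/
structure IsRep (E : T → G) : Prop where
  map_mul : ∀ x y, E (mulT x y) = E x * E y
  inj : Function.Injective E

namespace IsRep

variable {E : T → G} (h : IsRep E)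

include h

theorem map_one : E oneT = 1 := by
  have h1 : E (mulT oneT oneT) = E oneT * E oneT := h.map_mul _ _
  have h2 : mulT oneT oneT = oneT := by decide +kernel
  rw [h2] at h1
  exact mul_eq_left.1 h1.symm

theorem pow_four (x : T) : E x * E x * (E x * E x) = 1 := by
  obtain ⟨k, a, c⟩ := x
  rw [← h.map_mul, ← h.map_mul, pow4', h.map_one]

theorem mul_inv_eq (x : T) : (E x)⁻¹ = E (mulT x (mulT x x)) := by
  apply inv_eq_of_mul_eq_one_right
  obtain ⟨k, a, c⟩ := x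
  rw [← h.map_mul, inv_right', h.map_one]

theorem eq_iff_comm {x y : T} : E x * E y = E y * E x ↔ mulT x y = mulT y x := by
  rw [← h.map_mul, ← h.map_mul]
  exact h.inj.eq_iff

/-- The subgroup. -/
def sub : Subgroup G where
  carrier := Set.range E
  mul_mem' := by
    rintro _ _ ⟨x, rfl⟩ ⟨y, rfl⟩
    exact ⟨mulT x y, h.map_mul x y⟩
  one_mem' := ⟨oneT, h.map_one⟩
  inv_mem' := by
    rintro _ ⟨x, rfl⟩
    exact ⟨_, (h.mul_inv_eq x).symm⟩

theorem mem_sub {g : G} : g ∈ h.sub ↔ ∃ x, E x = g := Iff.rfl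

theorem E_mem (x : T) : E x ∈ h.sub := ⟨x, rfl⟩

theorem card_sub : Nat.card h.sub = 64 := by
  have h1 : Nat.card h.sub = Nat.card T :=
    (Nat.card_congr (Equiv.ofInjective E h.inj)).symm
  rw [h1, Nat.card_eq_fintype_card]
  simp

theorem isPGroup : IsPGroup 2 h.sub := by
  apply IsPGroup.of_card (n := 6)
  rw [h.card_sub]
  norm_num

theorem pow_four_sub (x : h.sub) : x ^ 4 = 1 := by
  obtain ⟨_, t, rfl⟩ := x
  apply Subtype.ext
  have h1 := h.pow_four t
  simpa [pow_succ, mul_assoc] using h1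

theorem orderOf_gen : orderOf (⟨E (1, 0, 0), h.E_mem _⟩ : h.sub) = 4 := by
  have h4 : (⟨E (1, 0, 0), h.E_mem _⟩ : h.sub) ^ 2 ^ (1 + 1) = 1 := h.pow_four_sub _
  have h2 : (⟨E (1, 0, 0), h.E_mem _⟩ : h.sub) ^ 2 ^ 1 ≠ 1 := by
    intro hc
    have h3 : E (1, 0, 0) * E (1, 0, 0) = 1 := by
      have := congrArg Subtype.val hc
      simpa [pow_succ] using this
    rw [← h.map_mul, ← h.map_one] at h3
    have h5 := h.inj h3
    revert h5
    decide +kernel
  have := orderOf_eq_prime_pow h2 h4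
  simpa using this

theorem exponent_sub : Monoid.exponent h.sub = 2 * Nat.gcd 2 2 := by
  rw [Nat.gcd_self]
  apply Nat.dvd_antisymm
  · exact Monoid.exponent_dvd_of_forall_pow_eq_one h.pow_four_sub
  · have := Monoid.order_dvd_exponent (⟨E (1, 0, 0), h.E_mem _⟩ : h.sub)
    rwa [h.orderOf_gen] at this

theorem central_of_mem_center {g : h.sub} (hg : g ∈ Subgroup.center h.sub) : ∃ k : Fin 4, (g : G) = E (k, 0, 0) := by
  obtain ⟨_, ⟨k, a, c⟩, rfl⟩ := g
  by_cases hac : a ≠ 0 ∨ c ≠ 0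
  · exfalso
    obtain ⟨k', a', c', hne⟩ := center' k a c hac
    apply hne
    have h1 := (Subgroup.mem_center_iff.1 hg) ⟨E (k', a', c'), h.E_mem _⟩
    have h2 : E (k', a', c') * E (k, a, c) = E (k, a, c) * E (k', a', c') := congrArg Subtype.val h1
    exact (h.eq_iff_comm.1 h2.symm)
  · push Not at hac
    obtain ⟨rfl, rfl⟩ := hac
    exact ⟨k, rfl⟩

theorem central_mem (k : Fin 4) : (⟨E (k, 0, 0), h.E_mem _⟩ : h.sub) ∈ Subgroup.center h.sub := by
  rw [Subgroup.mem_center_iff]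
  rintro ⟨_, ⟨k', a', c'⟩, rfl⟩
  apply Subtype.ext
  exact (h.eq_iff_comm.2 (central_comm k k' a' c')).symm

theorem card_center : Nat.card (Subgroup.center h.sub) = 4 := by
  let f : Fin 4 → Subgroup.center h.sub := fun k => ⟨⟨E (k, 0, 0), h.E_mem _⟩, h.central_mem k⟩
  have hf : Function.Bijective f := by
    constructor
    · intro k k' hk
      have h1 : E (k, 0, 0) = E (k', 0, 0) := congrArg (fun z : Subgroup.center h.sub => ((z : h.sub) : G)) hk
      have h2 := h.inj h1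
      exact (Prod.ext_iff.1 h2).1
    · rintro ⟨g, hg⟩
      obtain ⟨k, hk⟩ := h.central_of_mem_center hg
      refine ⟨k, ?_⟩
      apply Subtype.ext
      apply Subtype.ext
      exact hk.symm
  rw [← Nat.card_congr (Equiv.ofBijective f hf)]
  simp

/-- The automorphism of the subgroup given by a parameter map. -/
noncomputable def autOf (φ : T → T) (hφ : ∀ x y, φ (mulT x y) = mulT (φ x) (φ y)) (hinj : Function.Injective φ) :
    h.sub ≃* h.sub :=
  let e : T ≃ h.sub := Equiv.ofInjective E h.inj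
  let p : T ≃ T := Equiv.ofBijective φ (Finite.injective_iff_bijective.1 hinj)
  { (e.symm.trans p).trans e with
    map_mul' := by
      rintro ⟨_, x, rfl⟩ ⟨_, y, rfl⟩
      have hx : e.symm ⟨E x, x, rfl⟩ = x := Equiv.ofInjective_symm_apply h.inj x
      have hy : e.symm ⟨E y, y, rfl⟩ = y := Equiv.ofInjective_symm_apply h.inj y
      have hxy : e.symm (⟨E x, x, rfl⟩ * ⟨E y, y, rfl⟩) = mulT x y := by
        have h1 : (⟨E x, x, rfl⟩ * ⟨E y, y, rfl⟩ : h.sub) = e (mulT x y) := by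
          apply Subtype.ext
          exact (h.map_mul x y).symm
        rw [h1, Equiv.symm_apply_apply]
      apply Subtype.ext
      change E (φ (e.symm _)) = E (φ (e.symm _)) * E (φ (e.symm _))
      rw [hxy, hx, hy, hφ, h.map_mul] }

theorem autOf_apply (φ : T → T) (hφ : ∀ x y, φ (mulT x y) = mulT (φ x) (φ y)) (hinj : Function.Injective φ) (x : T) :
    ((h.autOf φ hφ hinj ⟨E x, h.E_mem x⟩ : h.sub) : G) = E (φ x) := by
  have hx : (Equiv.ofInjective E h.inj).symm ⟨E x, x, rfl⟩ = x := Equiv.ofInjective_symm_apply h.inj x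
  exact congrArg (fun z => E (φ z)) hx

theorem central_of_char (A : Subgroup h.sub) (hA : A.Characteristic) (hc : IsMulCommutative A)
    {g : h.sub} (hg : g ∈ A) : ∃ k : Fin 4, (g : G) = E (k, 0, 0) := by
  obtain ⟨_, ⟨k, a, c⟩, rfl⟩ := g
  by_cases hac : a ≠ 0 ∨ c ≠ 0
  · exfalso
    have key : ∀ φ : T → T, (∀ x y, φ (mulT x y) = mulT (φ x) (φ y)) → Function.Injective φ →
        mulT (k, a, c) (φ (k, a, c)) = mulT (φ (k, a, c)) (k, a, c) := by
      intro φ hφ hinj
      let ψ := h.autOf φ hφ hinj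
      have h1 : ψ ⟨E (k, a, c), h.E_mem _⟩ ∈ A := by
        have h2 := hA.fixed ψ
        have h3 : (⟨E (k, a, c), h.E_mem _⟩ : h.sub) ∈ A.comap ψ.toMonoidHom := by
          rw [h2]
          exact hg
        exact h3
      have h4 := hc.is_comm.comm ⟨_, hg⟩ ⟨_, h1⟩
      have h5 : E (k, a, c) * ((ψ ⟨E (k, a, c), h.E_mem _⟩ : h.sub) : G) =
          ((ψ ⟨E (k, a, c), h.E_mem _⟩ : h.sub) : G) * E (k, a, c) :=
        congrArg (fun z : A => ((z : h.sub) : G)) h4
      rw [h.autOf_apply] at h5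
      exact h.eq_iff_comm.1 h5
    have hφ1 : ∀ x y, phi1 (mulT x y) = mulT (phi1 x) (phi1 y) := by
      rintro ⟨k, a, c⟩ ⟨k', a', c'⟩
      exact phi1_mul k a c k' a' c'
    have hφ2 : ∀ x y, phi2 (mulT x y) = mulT (phi2 x) (phi2 y) := by
      rintro ⟨k, a, c⟩ ⟨k', a', c'⟩
      exact phi2_mul k a c k' a' c'
    have hi1 : Function.Injective phi1 := by
      rintro ⟨k, a, c⟩ ⟨k', a', c'⟩
      exact phi1_inj' k a c k' a' c'
    have hi2 : Function.Injective phi2 := by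
      rintro ⟨k, a, c⟩ ⟨k', a', c'⟩
      exact phi2_inj' k a c k' a' c'
    rcases noncomm' k a c hac with h1 | h1
    · exact h1 (key phi1 hφ1 hi1)
    · exact h1 (key phi2 hφ2 hi2)
  · push Not at hac
    obtain ⟨rfl, rfl⟩ := hac
    exact ⟨k, rfl⟩

theorem cyclic_of_char (A : Subgroup h.sub) (hA : A.Characteristic) (hc : IsMulCommutative A) : IsCyclic A := by
  let g₀ : h.sub := ⟨E (1, 0, 0), h.E_mem _⟩
  have hpow : ∀ k : Fin 4, E (k, 0, 0) = ((g₀ ^ (k : ℕ) : h.sub) : G) := by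
    have e0 : E (0, 0, 0) = 1 := h.map_one
    have e2 : E (2, 0, 0) = E (1, 0, 0) * E (1, 0, 0) := by
      rw [← h.map_mul, central_add]
      rfl
    have e3 : E (3, 0, 0) = E (1, 0, 0) * E (1, 0, 0) * E (1, 0, 0) := by
      rw [← e2, ← h.map_mul, central_add]
      rfl
    intro k
    fin_cases k
    · simpa using e0
    · simp [g₀]
    · simpa [g₀, pow_succ] using e2
    · simpa [g₀, pow_succ] using e3
  have hle : A ≤ Subgroup.zpowers g₀ := by
    intro g hg
    obtain ⟨k, hk⟩ := h.central_of_char A hA hc hg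
    have h1 : g = g₀ ^ (k : ℕ) := by
      apply Subtype.ext
      rw [hk, hpow]
    rw [h1]
    exact Subgroup.npow_mem_zpowers g₀ k
  exact isCyclic_of_injective (Subgroup.inclusion hle) (Subgroup.inclusion_injective hle)

end IsRep

end Rep

end Cfsg.Agent.Lib.CmaxL.PauliT
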