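/-
`4 ∘ 2^{1+4}` in `GL₄(5)`, normalised by the monomial matrices of determinant one.
-/
import Cfsg.Agent.Lib.CmaxL.PauliT
import Cfsg.Agent.Lib.CmaxL.Lines
import Cfsg.Agent.Lib.Classical.MatrixBridge

set_option autoImplicit false

namespace Cfsg.Agent.Lib.CmaxL.PauliM

open Matrix Module Cfsg Cfsg.Geo Cfsg.Agent.Lib.Geo.Basic Cfsg.Agent.Lib.CmaxL.PauliT
open scoped MatrixGroups

universe u

theorem xr_invol : ∀ a b : Fin 4, xr a (xr a b) = b := by decide +kernel

theorem xr_assoc : ∀ a a' b : Fin 4, xr a (xr a' b) = xr (xr a a') b := by decide +kernel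

theorem xr_zero_left : ∀ b : Fin 4, xr 0 b = b := by decide +kernel

theorem xr_zero_right : ∀ b : Fin 4, xr b 0 = b := by decide +kernel

theorem dot_zero_left : ∀ b : Fin 4, dot 0 b = 0 := by decide +kernel

theorem dot_zero_right : ∀ b : Fin 4, dot b 0 = 0 := by decide +kernel

theorem dot_xr_right : ∀ c a b : Fin 4, dot c (xr a b) % 2 = (dot c a + dot c b) % 2 := by decide +kernel

theorem dot_xr_left : ∀ c c' b : Fin 4, dot (xr c c') b % 2 = (dot c b + dot c' b) % 2 := by decide +kernel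

theorem dot_le : ∀ c b : Fin 4, dot c b = 0 ∨ dot c b = 1 := by decide +kernel

theorem dot_sep : ∀ r b : Fin 4, r ≠ b → ∃ c : Fin 4, dot c r ≠ dot c b := by decide +kernel

theorem dot_sep' : ∀ c c' : Fin 4, c ≠ c' → ∃ b : Fin 4, dot c b ≠ dot c' b := by decide +kernel

theorem inv_left' : ∀ k a c : Fin 4, mulT (mulT (k, a, c) (mulT (k, a, c) (k, a, c))) (k, a, c) = oneT := by
  decide +kernel

/-- Translations, as permutations. -/
def tr (a : Fin 4) : Equiv.Perm (Fin 4) := ⟨xr a, xr a, xr_invol a, xr_invol a⟩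

theorem tr_apply (a b : Fin 4) : tr a b = xr a b := rfl

theorem tr_symm_apply (a b : Fin 4) : (tr a).symm b = xr a b := rfl

theorem tr_mul (a a' : Fin 4) : tr a * tr a' = tr (xr a a') := by
  ext b
  simp only [Equiv.Perm.mul_apply, tr_apply]
  rw [xr_assoc]

theorem conj_tr : ∀ (σ : Equiv.Perm (Fin 4)) (a : Fin 4), ∃ a' : Fin 4, ∀ b, σ (xr a b) = xr a' (σ b) := by
  decide +kernel

theorem xr_comm_aux : ∀ b : Fin 4, xr b b = 0 := by decide +kernel

theorem xr_self : ∀ b : Fin 4, xr b b = 0 := by decide +kernel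

theorem bool_lemma : ∀ e : Fin 4 → Bool, xor (xor (xor (e 0) (e 1)) (e 2)) (e 3) = false →
    ∀ a b b' : Fin 4, xor (e (xr a b)) (e b') = xor (e (xr a b')) (e b) := by
  decide +kernel

section Mono

variable {F : Type u} [Field F]

/-- Monomial matrices. -/
def mono (σ : Equiv.Perm (Fin 4)) (r : Fin 4 → F) : Matrix (Fin 4) (Fin 4) F :=
  Matrix.of fun j b => if j = σ b then r b else 0

theorem mono_apply (σ : Equiv.Perm (Fin 4)) (r : Fin 4 → F) (j b : Fin 4) :
    mono σ r j b = if j = σ b then r b else 0 := rfl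

theorem mono_mul (σ τ : Equiv.Perm (Fin 4)) (r s : Fin 4 → F) :
    mono σ r * mono τ s = mono (σ * τ) (fun b => r (τ b) * s b) := by
  ext j b
  rw [Matrix.mul_apply, Finset.sum_eq_single (τ b)]
  · by_cases h : j = σ (τ b)
    · simp [mono_apply, h, Equiv.Perm.mul_apply]
    · simp [mono_apply, h, Equiv.Perm.mul_apply]
  · intro l _ hl
    simp [mono_apply, hl]
  · simp

theorem mono_mulVec (σ : Equiv.Perm (Fin 4)) (r x : Fin 4 → F) (j : Fin 4) :
    (mono σ r *ᵥ x) j = r (σ.symm j) * x (σ.symm j) := by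
  rw [Matrix.mulVec, dotProduct, Finset.sum_eq_single (σ.symm j)]
  · simp [mono_apply]
  · intro l _ hl
    have : j ≠ σ l := by
      rintro rfl
      simp at hl
    simp [mono_apply, this]
  · simp

theorem mul_mono_apply (M : Matrix (Fin 4) (Fin 4) F) (σ : Equiv.Perm (Fin 4)) (r : Fin 4 → F) (j b : Fin 4) :
    (M * mono σ r) j b = M j (σ b) * r b := by
  rw [Matrix.mul_apply, Finset.sum_eq_single (σ b)]
  · simp [mono_apply]
  · intro l _ hl
    simp [mono_apply, hl]
  · simp

theorem mono_mul_apply (M : Matrix (Fin 4) (Fin 4) F) (σ : Equiv.Perm (Fin 4)) (r : Fin 4 → F) (j b : Fin 4) :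
    (mono σ r * M) j b = r (σ.symm j) * M (σ.symm j) b := by
  rw [Matrix.mul_apply, Finset.sum_eq_single (σ.symm j)]
  · simp [mono_apply]
  · intro l _ hl
    have : j ≠ σ l := by
      rintro rfl
      simp at hl
    simp [mono_apply, this]
  · simp

theorem det_mono_sq (σ : Equiv.Perm (Fin 4)) (r : Fin 4 → F) : (mono σ r).det ^ 2 = (∏ j, r j) ^ 2 := by
  have h1 : mono σ r = mono σ (fun _ => 1) * mono 1 r := by
    rw [mono_mul]
    simp
  have h2 : mono 1 r = Matrix.diagonal r := by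
    ext j b
    by_cases h : j = b
    · subst h
      simp [mono_apply]
    · simp [mono_apply, h]
  have h3 : (mono σ (fun _ => (1 : F))).det ^ 2 = 1 := by
    have h4 : (mono σ (fun _ => (1 : F)))ᵀ = mono σ⁻¹ (fun _ => 1) := by
      ext j b
      simp only [Matrix.transpose_apply, mono_apply]
      by_cases h : b = σ j
      · subst h
        simp
      · have h5 : ¬ j = σ⁻¹ b := by
          rintro rfl
          simp at h
        rw [if_neg h, if_neg h5]
    have h5 : mono σ (fun _ => (1 : F)) * mono σ⁻¹ (fun _ => 1) = 1 := by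
      rw [mono_mul]
      ext j b
      by_cases h : j = b
      · subst h
        simp [mono_apply]
      · simp [mono_apply, h]
    have h6 := congrArg Matrix.det h5
    rw [Matrix.det_mul, ← h4, Matrix.det_transpose, Matrix.det_one] at h6
    rw [sq]
    exact h6
  rw [h1, Matrix.det_mul, h2, Matrix.det_diagonal, mul_pow, h3, one_mul]

end Mono

section Elt

variable {F : Type u} [Field F] (i : F)

/-- The values. -/
def fval (k c b : Fin 4) : F := i ^ (k : ℕ) * (-1) ^ dot c b

/-- The matrix with parameter `t`. -/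
def eltM (t : T) : Matrix (Fin 4) (Fin 4) F := mono (tr t.2.1) (fval i t.1 t.2.2)

theorem sgn_congr {m n : ℕ} (h : m % 2 = n % 2) : (-1 : F) ^ m = (-1) ^ n := by
  rw [neg_one_pow_eq_pow_mod_two, h, ← neg_one_pow_eq_pow_mod_two]

variable {i}

theorem pow_four_i (hi : i ^ 2 = -1) : i ^ 4 = 1 := by
  calc i ^ 4 = (i ^ 2) ^ 2 := by ring
    _ = 1 := by rw [hi]; ring

theorem pow_fin_add (hi : i ^ 2 = -1) (u v : Fin 4) : i ^ ((u + v : Fin 4) : ℕ) = i ^ (u : ℕ) * i ^ (v : ℕ) := by
  rw [Fin.val_add, ← pow_eq_pow_mod _ (pow_four_i hi), pow_add]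

theorem pow_s (hi : i ^ 2 = -1) (c a : Fin 4) :
    i ^ (((if dot c a = 0 then 0 else 2 : Fin 4)) : ℕ) = (-1) ^ dot c a := by
  rcases dot_le c a with h | h
  · rw [if_pos h, h]
    simp
  · rw [if_neg (by omega), h]
    simpa using hi

theorem eltM_mul (hi : i ^ 2 = -1) (x y : T) : eltM i (mulT x y) = eltM i x * eltM i y := by
  obtain ⟨k, a, c⟩ := x
  obtain ⟨k', a', c'⟩ := y
  simp only [eltM, mulT]
  rw [mono_mul, tr_mul]
  congr 1
  funext b
  simp only [fval, tr_apply]
  rw [pow_fin_add hi, pow_fin_add hi, pow_s hi, sgn_congr (dot_xr_left c c' b), pow_add,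
    sgn_congr (dot_xr_right c a' b), pow_add]
  ring

theorem eltM_one : eltM i oneT = 1 := by
  ext j b
  simp only [eltM, oneT, mono_apply, tr_apply, xr_zero_left, fval, Matrix.one_apply, dot_zero_left]
  simp

/-- The elements of `GL₄`. -/
def eltG (hi : i ^ 2 = -1) (t : T) : GL (Fin 4) F where
  val := eltM i t
  inv := eltM i (mulT t (mulT t t))
  val_inv := by
    obtain ⟨k, a, c⟩ := t
    rw [← eltM_mul hi, inv_right', eltM_one]
  inv_val := by
    obtain ⟨k, a, c⟩ := t
    rw [← eltM_mul hi, inv_left', eltM_one]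

@[simp] theorem coe_eltG (hi : i ^ 2 = -1) (t : T) : ((eltG hi t : GL (Fin 4) F) : Matrix (Fin 4) (Fin 4) F) = eltM i t := rfl

theorem neg_one_ne_one (h2 : (2 : F) ≠ 0) : (-1 : F) ≠ 1 := by
  intro h
  apply h2
  linear_combination -h

theorem i_pow_inj (hi : i ^ 2 = -1) (h2 : (2 : F) ≠ 0) {k k' : Fin 4} (h : i ^ (k : ℕ) = i ^ (k' : ℕ)) : k = k' := by
  have h0 : i ≠ 0 := by
    rintro rfl
    have := neg_one_ne_one h2
    simp at hi
  have h1 : i ≠ 1 := by
    rintro rfl
    apply neg_one_ne_one h2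
    simpa using hi.symm
  have h3 : i ≠ -1 := by
    rintro rfl
    apply neg_one_ne_one h2
    simpa using hi.symm
  have h4 : (i ^ 3 : F) = -i := by
    calc i ^ 3 = i ^ 2 * i := by ring
      _ = -i := by rw [hi]; ring
  have h5 : (-1 : F) ≠ 1 := neg_one_ne_one h2
  have h6 : -i ≠ i := by
    intro h
    apply h0
    have h7 : (2 : F) * i = 0 := by linear_combination -h
    exact (mul_eq_zero.1 h7).resolve_left h2
  fin_cases k <;> fin_cases k' <;> simp [hi, h4] at h ⊢
  all_goals first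
    | exact absurd h h1
    | exact absurd h.symm h1
    | exact absurd h h5
    | exact absurd h.symm h5
    | exact absurd h h3
    | exact absurd h.symm h3
    | exact absurd h h6
    | exact absurd h.symm h6
    | skip
  all_goals first
    | (exfalso; apply h3; linear_combination -h)
    | (exfalso; apply h3; linear_combination h)
    | (exfalso; apply h1; linear_combination -h)
    | (exfalso; apply h1; linear_combination h)
    | skip

theorem eltM_inj (hi : i ^ 2 = -1) (h2 : (2 : F) ≠ 0) {x y : T} (h : eltM i x = eltM i y) : x = y := by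
  obtain ⟨k, a, c⟩ := x
  obtain ⟨k', a', c'⟩ := y
  have h0 : i ≠ 0 := by
    rintro rfl
    have := neg_one_ne_one h2
    simp at hi
  have hent : ∀ j b, eltM i (k, a, c) j b = eltM i (k', a', c') j b := fun j b => by rw [h]
  simp only [eltM, mono_apply, tr_apply] at hent
  have h1 := hent a 0
  simp only [xr_zero_right, ↓reduceIte] at h1
  have hne : fval i k c 0 ≠ 0 := by
    simp [fval, dot_zero_right, h0]
  have haa : a = a' := by
    by_contra hcon
    rw [if_neg hcon] at h1
    exact hne h1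
  subst haa
  rw [if_pos rfl] at h1
  have hk : k = k' := by
    apply i_pow_inj hi h2
    simpa [fval, dot_zero_right] using h1
  subst hk
  have hcc : c = c' := by
    by_contra hcon
    obtain ⟨b, hb⟩ := dot_sep' c c' hcon
    have h3 := hent (xr a b) b
    simp only [↓reduceIte] at h3
    have h4 : (-1 : F) ^ dot c b = (-1) ^ dot c' b := by
      have h5 : i ^ (k : ℕ) ≠ 0 := pow_ne_zero _ h0
      exact mul_left_cancel₀ h5 h3
    rcases dot_le c b with h6 | h6 <;> rcases dot_le c' b with h7 | h7 <;> rw [h6, h7] at h4 <;> simp at h4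
    · omega
    · exact neg_one_ne_one h2 h4.symm
    · exact neg_one_ne_one h2 h4
    · omega
  subst hcc
  rfl

theorem eltG_rep (hi : i ^ 2 = -1) (h2 : (2 : F) ≠ 0) : IsRep (eltG hi) where
  map_mul := fun x y => Units.ext (eltM_mul hi x y)
  inj := fun _ _ h => eltM_inj hi h2 (congrArg Units.val h)

/-- Conjugates of the representation. -/
theorem conj_rep (hi : i ^ 2 = -1) (h2 : (2 : F) ≠ 0) (P : GL (Fin 4) F) :
    IsRep (fun t => P * eltG hi t * P⁻¹) where
  map_mul := fun x y => by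
    rw [(eltG_rep hi h2).map_mul]
    group
  inj := fun x y h => by
    apply (eltG_rep hi h2).inj
    simpa using h

end Elt
section Irr

variable {F : Type u} [Field F] {i : F}

theorem char_orth (b j : Fin 4) :
    ∑ c : Fin 4, (-1 : F) ^ dot c b * (-1 : F) ^ dot c j = if j = b then 4 else 0 := by
  fin_cases b <;> fin_cases j <;> simp [Fin.sum_univ_four, dot] <;> norm_num

theorem eltM_diag_mulVec (c : Fin 4) (v : Fin 4 → F) (j : Fin 4) :
    (eltM i (0, 0, c) *ᵥ v) j = (-1) ^ dot c j * v j := by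
  simp only [eltM]
  rw [mono_mulVec, tr_symm_apply, xr_zero_left]
  simp [fval]

theorem eltM_single (a b : Fin 4) :
    eltM i (0, a, 0) *ᵥ (Pi.single b 1 : Fin 4 → F) = Pi.single (xr a b) 1 := by
  funext j
  simp only [eltM]
  rw [mono_mulVec, tr_symm_apply]
  simp only [fval, dot_zero_left, pow_zero, Fin.val_zero, mul_one, one_mul, Pi.single_apply]
  by_cases h : j = xr a b
  · subst h
    rw [xr_invol]
    simp
  · have h3 : ¬ xr a j = b := by
      rintro rfl
      exact h (xr_invol a j).symm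
    rw [if_neg h, if_neg h3]

theorem absIrred_range (h2 : (2 : F) ≠ 0) : ActsAbsolutelyIrreducibly (Set.range (eltM (F := F) i)) := by
  have h4 : (4 : F) ≠ 0 := by
    have : (4 : F) = 2 * 2 := by norm_num
    rw [this]
    exact mul_ne_zero h2 h2
  constructor
  · intro W hW
    by_cases hb : W = ⊥
    · exact Or.inl hb
    right
    have hmv : ∀ t, ∀ v ∈ W, eltM i t *ᵥ v ∈ W := fun t v hv =>
      hW _ ⟨t, rfl⟩ (Submodule.mem_map_of_mem (f := Matrix.toLin' (eltM i t)) hv)
    obtain ⟨v, hv, hv0⟩ := Submodule.exists_mem_ne_zero_of_ne_bot hb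
    obtain ⟨b, hbv⟩ : ∃ b, v b ≠ 0 := by
      by_contra hcon
      push Not at hcon
      exact hv0 (funext hcon)
    have hsingle0 : (Pi.single b 1 : Fin 4 → F) ∈ W := by
      have hu : (∑ c : Fin 4, (-1 : F) ^ dot c b • (eltM i (0, 0, c) *ᵥ v)) ∈ W :=
        W.sum_mem fun c _ => W.smul_mem _ (hmv _ _ hv)
      have hu' : (∑ c : Fin 4, (-1 : F) ^ dot c b • (eltM i (0, 0, c) *ᵥ v)) = ((4 : F) * v b) • Pi.single b 1 := by
        funext j
        have h5 : ∀ c : Fin 4, (-1 : F) ^ dot c b * ((eltM i (0, 0, c) *ᵥ v) j) =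
            ((-1 : F) ^ dot c b * (-1 : F) ^ dot c j) * v j := by
          intro c
          rw [eltM_diag_mulVec]
          ring
        simp only [Finset.sum_apply, Pi.smul_apply, smul_eq_mul, h5]
        rw [← Finset.sum_mul, char_orth, Pi.single_apply]
        by_cases h : j = b
        · subst h
          simp
        · simp [h]
      rw [hu'] at hu
      have h6 := W.smul_mem ((4 : F) * v b)⁻¹ hu
      rwa [smul_smul, inv_mul_cancel₀ (mul_ne_zero h4 hbv), one_smul] at h6
    have hsingle : ∀ j, (Pi.single j 1 : Fin 4 → F) ∈ W := by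
      intro j
      have h1 := hmv (0, xr j b, 0) _ hsingle0
      rw [eltM_single] at h1
      have h3 : xr (xr j b) b = j := by
        rw [← xr_assoc, xr_comm_aux b, xr_zero_right]
      rwa [h3] at h1
    refine Submodule.eq_top_iff'.2 fun x => ?_
    have : x = ∑ j, x j • (Pi.single j 1 : Fin 4 → F) := by
      ext l
      simp [Finset.sum_apply, Pi.single_apply]
    rw [this]
    exact W.sum_mem fun j _ => W.smul_mem _ (hsingle j)
  · intro M hM
    have hd : ∀ r b, r ≠ b → M r b = 0 := by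
      intro r b hrb
      obtain ⟨c, hc⟩ := dot_sep r b hrb
      have h1 := congrFun (congrFun (hM _ ⟨(0, 0, c), rfl⟩) r) b
      simp only [eltM] at h1
      rw [mul_mono_apply, mono_mul_apply, tr_apply, tr_symm_apply, xr_zero_left, xr_zero_left] at h1
      simp only [fval, Fin.val_zero, pow_zero, one_mul] at h1
      have h3 : M r b * ((-1) ^ dot c b - (-1) ^ dot c r) = 0 := by
        linear_combination h1
      rcases mul_eq_zero.1 h3 with h5 | h5
      · exact h5
      · exfalso
        rcases dot_le c b with h6 | h6 <;> rcases dot_le c r with h7 | h7 <;> rw [h6, h7] at h5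
        · omega
        · apply h2
          simp at h5
          linear_combination h5
        · apply h2
          simp at h5
          linear_combination -h5
        · omega
    have hdiag : ∀ j, M j j = M 0 0 := by
      intro j
      have h1 := congrFun (congrFun (hM _ ⟨(0, j, 0), rfl⟩) j) 0
      simp only [eltM] at h1
      rw [mul_mono_apply, mono_mul_apply, tr_apply, tr_symm_apply, xr_zero_right, xr_self j] at h1
      simpa [fval, dot_zero_left] using h1
    refine ⟨M 0 0, ?_⟩
    ext r b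
    by_cases h : r = b
    · subst h
      simp [hdiag]
    · simp [hd r b h, h]

theorem absIrred_conj {ι : Type} [Fintype ι] [DecidableEq ι] (P : GL ι F) {S : Set (Matrix ι ι F)}
    (h : ActsAbsolutelyIrreducibly S) :
    ActsAbsolutelyIrreducibly ((fun s => (P : Matrix ι ι F) * s * ((P⁻¹ : GL ι F) : Matrix ι ι F)) '' S) := by
  have hPP : ∀ v : ι → F, (P : Matrix ι ι F) *ᵥ (((P⁻¹ : GL ι F) : Matrix ι ι F) *ᵥ v) = v := by
    intro v
    rw [Matrix.mulVec_mulVec, Units.mul_inv, Matrix.one_mulVec]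
  have hPP' : ∀ v : ι → F, ((P⁻¹ : GL ι F) : Matrix ι ι F) *ᵥ ((P : Matrix ι ι F) *ᵥ v) = v := by
    intro v
    rw [Matrix.mulVec_mulVec, Units.inv_mul, Matrix.one_mulVec]
  constructor
  · intro W hW
    have hW' : ∀ s ∈ S, ∀ v ∈ W, ((P : Matrix ι ι F) * s * ((P⁻¹ : GL ι F) : Matrix ι ι F)) *ᵥ v ∈ W := by
      intro s hs v hv
      exact hW _ ⟨s, hs, rfl⟩ (Submodule.mem_map_of_mem (f := Matrix.toLin' _) hv)
    let W' : Submodule F (ι → F) := W.comap (Matrix.toLin' (P : Matrix ι ι F))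
    have hmem : ∀ v, v ∈ W' ↔ (P : Matrix ι ι F) *ᵥ v ∈ W := fun v => Iff.rfl
    rcases h.1 W' (by
      rintro s hs _ ⟨v, hv, rfl⟩
      have hv' : (P : Matrix ι ι F) *ᵥ v ∈ W := hv
      have h1 := hW' s hs _ hv'
      rw [Matrix.mulVec_mulVec, mul_assoc, Units.inv_mul, mul_one] at h1
      change (P : Matrix ι ι F) *ᵥ (s *ᵥ v) ∈ W
      rw [Matrix.mulVec_mulVec]
      exact h1) with h1 | h1
    · left
      refine (Submodule.eq_bot_iff _).2 fun v hv => ?_
      have h2 : ((P⁻¹ : GL ι F) : Matrix ι ι F) *ᵥ v ∈ W' := by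
        rw [hmem, hPP]
        exact hv
      rw [h1, Submodule.mem_bot] at h2
      rw [← hPP v, h2, Matrix.mulVec_zero]
    · right
      refine Submodule.eq_top_iff'.2 fun v => ?_
      have h2 : ((P⁻¹ : GL ι F) : Matrix ι ι F) *ᵥ v ∈ W' := by
        rw [h1]
        trivial
      rw [hmem, hPP] at h2
      exact h2
  · intro M hM
    obtain ⟨c, hc⟩ := h.2 (((P⁻¹ : GL ι F) : Matrix ι ι F) * M * (P : Matrix ι ι F)) (by
      intro s hs
      have h1 := hM _ ⟨s, hs, rfl⟩
      have h2 := congrArg (fun X => ((P⁻¹ : GL ι F) : Matrix ι ι F) * X * (P : Matrix ι ι F)) h1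
      simp only at h2
      simp only [mul_assoc, Units.inv_mul, mul_one] at h2
      simp only [← mul_assoc, Units.inv_mul, one_mul] at h2 ⊢
      simpa [mul_assoc] using h2)
    refine ⟨c, ?_⟩
    have h2 := congrArg (fun X => (P : Matrix ι ι F) * X * ((P⁻¹ : GL ι F) : Matrix ι ι F)) hc
    simp only [mul_assoc, Units.mul_inv, mul_one] at h2
    simp only [← mul_assoc, Units.mul_inv, one_mul] at h2
    rw [h2]
    simp [Matrix.mul_smul, Matrix.smul_mul]

end Irr

section Q5

variable {F : Type u} [Field F] [Fintype F] {i : F}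

theorem charP_five (hq : Fintype.card F = 5) : CharP F 5 := by
  obtain ⟨p, hp⟩ := CharP.exists F
  obtain ⟨n, hpp, hc⟩ := FiniteField.card F p
  have h1 : p ∣ 5 := by
    have : p ∣ p ^ (n : ℕ) := dvd_pow_self _ n.ne_zero
    rwa [← hc, hq] at this
  have h2 : p = 5 := (Nat.prime_dvd_prime_iff_eq hpp (by norm_num)).1 h1
  rw [h2] at hp
  exact hp

theorem pow_four_of_ne (hq : Fintype.card F = 5) {x : F} (hx : x ≠ 0) : x ^ 4 = 1 := by
  have h := FiniteField.pow_card x
  rw [hq] at h
  apply mul_left_cancel₀ hx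
  linear_combination h

theorem eq_or_eq_neg_of_sq {x y : F} (h : x ^ 2 = y ^ 2) : x = y ∨ x = -y := sq_eq_sq_iff_eq_or_eq_neg.1 h

theorem exists_pow_eq (hq : Fintype.card F = 5) (hi : i ^ 2 = -1) {x : F} (hx : x ≠ 0) : ∃ k : Fin 4, x = i ^ (k : ℕ) := by
  have h4 := pow_four_of_ne hq hx
  have h5 : (x ^ 2 - 1) * (x ^ 2 + 1) = 0 := by linear_combination h4
  rcases mul_eq_zero.1 h5 with h | h
  · have h6 : x ^ 2 = (1 : F) ^ 2 := by linear_combination h
    rcases eq_or_eq_neg_of_sq h6 with h7 | h7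
    · exact ⟨0, by simpa using h7⟩
    · exact ⟨2, by simpa [hi] using h7⟩
  · have h6 : x ^ 2 = i ^ 2 := by rw [hi]; linear_combination h
    rcases eq_or_eq_neg_of_sq h6 with h7 | h7
    · exact ⟨1, by simpa using h7⟩
    · refine ⟨3, ?_⟩
      have h8 : (i ^ 3 : F) = -i := by
        calc i ^ 3 = i ^ 2 * i := by ring
          _ = -i := by rw [hi]; ring
      simpa [h8] using h7

/-- Functions of the right form. -/
theorem good_form (hq : Fintype.card F = 5) (hi : i ^ 2 = -1) (h2 : (2 : F) ≠ 0) (f : Fin 4 → F) (hf0 : f 0 ≠ 0)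
    (hsq : ∀ j, f j ^ 2 = f 0 ^ 2) (hprod : f 0 * f 1 * f 2 * f 3 = 1) :
    ∃ k c : Fin 4, ∀ j, f j = fval i k c j := by
  obtain ⟨k, hk⟩ := exists_pow_eq hq hi hf0
  have h4 := pow_four_of_ne hq hf0
  have hne := neg_one_ne_one h2
  have key : ∀ c : Fin 4, (f 1 = (-1) ^ dot c 1 * f 0) → (f 2 = (-1) ^ dot c 2 * f 0) → (f 3 = (-1) ^ dot c 3 * f 0) →
      ∃ k c : Fin 4, ∀ j, f j = fval i k c j := by
    intro c h1 h2 h3
    refine ⟨k, c, fun j => ?_⟩
    fin_cases j
    · simp [fval, dot_zero_right, hk]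
    · change f 1 = fval i k c 1
      rw [h1, hk, fval]
      ring
    · change f 2 = fval i k c 2
      rw [h2, hk, fval]
      ring
    · change f 3 = fval i k c 3
      rw [h3, hk, fval]
      ring
  have hcontra : f 0 ^ 4 = -1 → False := by
    intro h
    rw [h4] at h
    exact hne h.symm
  rcases eq_or_eq_neg_of_sq (hsq 1) with h1 | h1 <;> rcases eq_or_eq_neg_of_sq (hsq 2) with h3 | h3 <;>
    rcases eq_or_eq_neg_of_sq (hsq 3) with h5 | h5
  · exact key 0 (by simp [dot_zero_left, h1]) (by simp [dot_zero_left, h3]) (by simp [dot_zero_left, h5])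
  · exfalso
    apply hcontra
    rw [h1, h3, h5] at hprod
    linear_combination -hprod
  · exfalso
    apply hcontra
    rw [h1, h3, h5] at hprod
    linear_combination -hprod
  · refine key 2 ?_ ?_ ?_
    · rw [show dot 2 1 = 0 from by decide +kernel, h1]
      simp
    · rw [show dot 2 2 = 1 from by decide +kernel, h3]
      simp
    · rw [show dot 2 3 = 1 from by decide +kernel, h5]
      simp
  · exfalso
    apply hcontra
    rw [h1, h3, h5] at hprod
    linear_combination -hprod
  · refine key 1 ?_ ?_ ?_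
    · rw [show dot 1 1 = 1 from by decide +kernel, h1]
      simp
    · rw [show dot 1 2 = 0 from by decide +kernel, h3]
      simp
    · rw [show dot 1 3 = 1 from by decide +kernel, h5]
      simp
  · refine key 3 ?_ ?_ ?_
    · rw [show dot 3 1 = 1 from by decide +kernel, h1]
      simp
    · rw [show dot 3 2 = 1 from by decide +kernel, h3]
      simp
    · rw [show dot 3 3 = 0 from by decide +kernel, h5]
      simp
  · exfalso
    apply hcontra
    rw [h1, h3, h5] at hprod
    linear_combination -hprod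

/-- Squares of a monomial matrix of determinant `± 1`. -/
theorem ratio_lemma (h2 : (2 : F) ≠ 0) (R : Fin 4 → F) (hR : ∀ j, R j = 1 ∨ R j = -1) (hp : R 0 * R 1 * R 2 * R 3 = 1)
    (a b b' : Fin 4) : R (xr a b) * R b' = R (xr a b') * R b := by
  let sg : Bool → F := fun e => if e then -1 else 1
  have hsg : ∀ x y : Bool, sg (xor x y) = sg x * sg y := by
    intro x y
    cases x <;> cases y <;> simp [sg]
  have hex : ∀ j, ∃ e : Bool, R j = sg e := by
    intro j
    rcases hR j with h | h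
    · exact ⟨false, by simpa [sg] using h⟩
    · exact ⟨true, by simpa [sg] using h⟩
  choose e he using hex
  have hx : xor (xor (xor (e 0) (e 1)) (e 2)) (e 3) = false := by
    by_contra hcon
    have h1 : xor (xor (xor (e 0) (e 1)) (e 2)) (e 3) = true := by simpa using hcon
    have h3 := hsg (xor (xor (e 0) (e 1)) (e 2)) (e 3)
    rw [h1, hsg, hsg, ← he, ← he, ← he, ← he, hp] at h3
    simp only [sg, if_true] at h3
    exact neg_one_ne_one h2 h3
  have := bool_lemma e hx a b b'
  calc R (xr a b) * R b' = sg (xor (e (xr a b)) (e b')) := by rw [hsg, ← he, ← he]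
    _ = sg (xor (e (xr a b')) (e b)) := by rw [this]
    _ = _ := by rw [hsg, ← he, ← he]

theorem fval_ne (hi : i ^ 2 = -1) (h2 : (2 : F) ≠ 0) (k c j : Fin 4) : fval i k c j ≠ 0 := by
  have h0 : i ≠ 0 := by
    rintro rfl
    have := neg_one_ne_one h2
    simp at hi
  exact mul_ne_zero (pow_ne_zero _ h0) (pow_ne_zero _ (by simp))

theorem fval_sq (hi : i ^ 2 = -1) (k c j : Fin 4) : fval i k c j ^ 2 = (i ^ (k : ℕ)) ^ 2 := by
  have h1 : ((-1 : F) ^ dot c j) ^ 2 = 1 := by
    rw [← pow_mul, mul_comm, pow_mul]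
    simp
  rw [fval, mul_pow, h1, mul_one]

theorem fval_prod (hi : i ^ 2 = -1) (k c : Fin 4) : ∏ j, fval i k c j = 1 := by
  have h4 : (i ^ (k : ℕ)) ^ 4 = 1 := by
    rw [← pow_mul, mul_comm, pow_mul, pow_four_i hi, one_pow]
  rw [Fin.prod_univ_four]
  simp only [fval]
  fin_cases c <;> simp [dot] <;> linear_combination h4

/-- Conjugation by a monomial matrix of determinant `± 1`. -/
theorem conj_mono (hq : Fintype.card F = 5) (hi : i ^ 2 = -1) (h2 : (2 : F) ≠ 0) (σ : Equiv.Perm (Fin 4)) (r : Fin 4 → F)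
    (hr0 : ∀ j, r j ≠ 0) (hprod : (∏ j, r j) ^ 2 = 1) (t : T) :
    ∃ t', mono σ r * eltM i t = eltM i t' * mono σ r := by
  obtain ⟨k, a, c⟩ := t
  obtain ⟨a', ha'⟩ := conj_tr σ a
  let f : Fin 4 → F := fun b => r (xr a b) * fval i k c b / r b
  let f' : Fin 4 → F := fun j => f (σ.symm j)
  have hf'σ : ∀ b, f' (σ b) = f b := fun b => by simp [f']
  have hf0 : ∀ b, f b ≠ 0 := fun b => div_ne_zero (mul_ne_zero (hr0 _) (fval_ne hi h2 k c b)) (hr0 b)
  have hR4 : ∀ j, (r j ^ 2) = 1 ∨ r j ^ 2 = -1 := by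
    intro j
    have h5 := pow_four_of_ne hq (hr0 j)
    have h6 : (r j ^ 2 - 1) * (r j ^ 2 + 1) = 0 := by linear_combination h5
    rcases mul_eq_zero.1 h6 with h | h
    · exact Or.inl (by linear_combination h)
    · exact Or.inr (by linear_combination h)
  have hrat := ratio_lemma h2 (fun j => r j ^ 2) hR4 (by
    rw [Fin.prod_univ_four] at hprod
    linear_combination hprod) a
  have hfsq : ∀ b b', f b ^ 2 = f b' ^ 2 := by
    intro b b'
    simp only [f, div_pow, mul_pow, fval_sq hi]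
    have h5 := hrat b b'
    have h6 : r b ^ 2 ≠ 0 := pow_ne_zero _ (hr0 b)
    have h7 : r b' ^ 2 ≠ 0 := pow_ne_zero _ (hr0 b')
    rw [div_eq_div_iff h6 h7]
    linear_combination ((i ^ (k : ℕ)) ^ 2) * h5
  have hfprod : ∏ b, f b = 1 := by
    simp only [f]
    rw [Finset.prod_div_distrib, Finset.prod_mul_distrib, fval_prod hi, mul_one]
    have h5 : ∏ b, r (xr a b) = ∏ b, r b := Equiv.prod_comp (tr a) r
    rw [h5]
    apply div_self
    exact Finset.prod_ne_zero_iff.2 fun j _ => hr0 j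
  have hf'prod : f' 0 * f' 1 * f' 2 * f' 3 = 1 := by
    rw [← Fin.prod_univ_four, ← Equiv.prod_comp σ f']
    simpa [hf'σ] using hfprod
  obtain ⟨k', c', hk'⟩ := good_form hq hi h2 f' (hf0 _) (fun j => hfsq _ _) hf'prod
  refine ⟨(k', a', c'), ?_⟩
  simp only [eltM]
  rw [mono_mul, mono_mul]
  have h5 : σ * tr a = tr a' * σ := by
    ext b
    simp only [Equiv.Perm.mul_apply, tr_apply]
    rw [ha']
  rw [h5]
  congr 1
  funext b
  rw [← hk', hf'σ]
  simp only [f, tr_apply]
  field_simp [hr0 b]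

end Q5
section Final

variable {F : Type u} [Field F] [Fintype F]

theorem data_conj (hq : Fintype.card F = 5) {i : F} (hi : i ^ 2 = -1) (h2 : (2 : F) ≠ 0) (P : GL (Fin 4) F) :
    IsLinearSymplecticTypeData 2 (conj_rep hi h2 P).sub := by
  have hR := conj_rep hi h2 P
  have hms : matrixSet (conj_rep hi h2 P).sub =
      (fun s => (P : Matrix (Fin 4) (Fin 4) F) * s * ((P⁻¹ : GL (Fin 4) F) : Matrix (Fin 4) (Fin 4) F)) ''
        Set.range (eltM (F := F) i) := by
    ext m
    constructor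
    · rintro ⟨g, ⟨t, rfl⟩, rfl⟩
      exact ⟨eltM i t, ⟨t, rfl⟩, rfl⟩
    · rintro ⟨_, ⟨t, rfl⟩, rfl⟩
      exact ⟨_, ⟨t, rfl⟩, rfl⟩
  haveI := charP_five hq
  refine ⟨⟨Nat.prime_two, hR.isPGroup, fun A hA hc => hR.cyclic_of_char A hA hc, hR.exponent_sub⟩, ?_, 5, 1, by norm_num,
    ⟨by norm_num, inferInstance, by simpa using hq, ?_, ?_⟩,
    Or.inr (Or.inl ⟨rfl, rfl, hR.card_center, by simp, 2, by rw [hR.card_sub]; norm_num⟩)⟩
  · rw [hms]
    exact absIrred_conj P (absIrred_range h2)
  · rw [hR.card_center]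
    norm_num
  · intro d h0 h1
    omega

theorem lines_q5 (hq : Fintype.card F = 5) {D : Fin 4 → Submodule F (Fin 4 → F)} (hD : IsMDecomposition 1 D) :
    ∃ R : Subgroup (GL (Fin 4) F), IsLinearSymplecticTypeData 2 R ∧
      decompositionStabilizer D ⊓ specialLinear (Fin 4) F ≤ subgroupNormalizer R := by
  classical
  haveI hc5 := charP_five hq
  have h5 : (5 : F) = 0 := by exact_mod_cast CharP.cast_eq_zero F 5
  have hi : (2 : F) ^ 2 = -1 := by linear_combination h5
  have h2 : (2 : F) ≠ 0 := by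
    intro h
    have h1 : (1 : F) = 0 := by linear_combination h5 - 2 * h
    exact one_ne_zero h1
  obtain ⟨b, hb⟩ := Cfsg.Agent.Lib.CmaxL.Lines.exists_lines_basis hD
  let P : GL (Fin 4) F := Cfsg.Agent.Lib.Classical.MatrixBridge.glToLin.symm b.equivFun.symm
  have hP : ∀ x, (P : Matrix (Fin 4) (Fin 4) F) *ᵥ x = b.equivFun.symm x :=
    fun x => Cfsg.Agent.Lib.Classical.MatrixBridge.glToLin_symm_mulVec _ x
  have hPi : ∀ z, ((P⁻¹ : GL (Fin 4) F) : Matrix (Fin 4) (Fin 4) F) *ᵥ z = b.equivFun z := by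
    intro z
    have h1 : z = (P : Matrix (Fin 4) (Fin 4) F) *ᵥ (b.equivFun z) := by
      rw [hP]
      simp
    conv_lhs => rw [h1]
    rw [Matrix.mulVec_mulVec, Units.inv_mul, Matrix.one_mulVec]
  refine ⟨(conj_rep hi h2 P).sub, data_conj hq hi h2 P, ?_⟩
  have key : ∀ g ∈ decompositionStabilizer D ⊓ specialLinear (Fin 4) F, ∀ t, ∃ t',
      g * (P * eltG hi t * P⁻¹) * g⁻¹ = P * eltG hi t' * P⁻¹ := by
    rintro g ⟨hg1, hg2⟩ t
    obtain ⟨σ, r, hr0, hr⟩ := hb g hg1
    let m : GL (Fin 4) F := P⁻¹ * g * P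
    have hm : (m : Matrix (Fin 4) (Fin 4) F) = mono σ r := by
      apply Matrix.ext_of_mulVec_single
      intro l
      funext j
      obtain ⟨a, rfl⟩ := σ.surjective j
      rw [mono_mulVec]
      simp only [Equiv.symm_apply_apply]
      have h1 : (m : Matrix (Fin 4) (Fin 4) F) *ᵥ (Pi.single l 1) =
          b.equivFun ((g : Matrix (Fin 4) (Fin 4) F) *ᵥ ((P : Matrix (Fin 4) (Fin 4) F) *ᵥ Pi.single l 1)) := by
        simp only [m, Units.val_mul]
        rw [← Matrix.mulVec_mulVec, ← Matrix.mulVec_mulVec, hPi]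
      rw [h1, hr, hP]
      simp only [LinearEquiv.apply_symm_apply]
    have hdet : (m : Matrix (Fin 4) (Fin 4) F).det = 1 := by
      have h1 := (mem_specialLinear_iff g).1 hg2
      simp only [m, Units.val_mul, Matrix.det_mul, h1, mul_one]
      rw [← Matrix.det_mul, Units.inv_mul, Matrix.det_one]
    have hprod : (∏ j, r j) ^ 2 = 1 := by
      rw [← det_mono_sq σ r, ← hm, hdet, one_pow]
    obtain ⟨t', ht'⟩ := conj_mono hq hi h2 σ r hr0 hprod t
    refine ⟨t', ?_⟩
    have hmx : m * eltG hi t = eltG hi t' * m := Units.ext (by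
      change (m : Matrix (Fin 4) (Fin 4) F) * eltM 2 t = eltM 2 t' * (m : Matrix (Fin 4) (Fin 4) F)
      rw [hm]
      exact ht')
    have hg : g = P * m * P⁻¹ := by
      simp only [m]
      group
    calc g * (P * eltG hi t * P⁻¹) * g⁻¹ = P * (m * eltG hi t) * m⁻¹ * P⁻¹ := by
          rw [hg]
          group
      _ = P * (eltG hi t' * m) * m⁻¹ * P⁻¹ := by rw [hmx]
      _ = P * eltG hi t' * P⁻¹ := by group
  intro g hg
  change g ∈ Subgroup.normalizer _
  rw [Subgroup.mem_normalizer_iff]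
  intro x
  constructor
  · rintro ⟨t, rfl⟩
    obtain ⟨t', ht'⟩ := key g hg t
    exact ⟨t', ht'.symm⟩
  · rintro ⟨t, ht⟩
    obtain ⟨t', ht'⟩ := key g⁻¹ (inv_mem hg) t
    refine ⟨t', ?_⟩
    have ht2 : P * eltG hi t * P⁻¹ = g * x * g⁻¹ := ht
    rw [ht2] at ht'
    change P * eltG hi t' * P⁻¹ = x
    rw [← ht']
    group

theorem two_ne (hq : Fintype.card F = 5) : ((2 : ℕ) : F) ≠ 0 := by
  haveI := charP_five hq
  rw [Ne, CharP.cast_eq_zero_iff F 5]
  norm_num

theorem not_card_six (hq : Fintype.card F = 6) : False := by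
  obtain ⟨p, hp⟩ := CharP.exists F
  obtain ⟨n, hpp, hc⟩ := FiniteField.card F p
  rw [hq] at hc
  have h1 : p ∣ 6 := by
    rw [hc]
    exact dvd_pow_self _ n.ne_zero
  have hcase : p = 2 ∨ p = 3 := by
    have hle : p ≤ 6 := Nat.le_of_dvd (by norm_num) h1
    interval_cases p <;> first | (exfalso; revert hpp; norm_num; done) | (exfalso; revert h1; norm_num; done) | omega
  rcases hcase with rfl | rfl
  · have h2 : 3 ∣ 2 ^ (n : ℕ) := by
      rw [← hc]
      norm_num
    have h3 := Nat.Prime.dvd_of_dvd_pow (by norm_num) h2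
    omega
  · have h2 : 2 ∣ 3 ^ (n : ℕ) := by
      rw [← hc]
      norm_num
    have h3 := Nat.Prime.dvd_of_dvd_pow (by norm_num) h2
    omega

end Final

end Cfsg.Agent.Lib.CmaxL.PauliM
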